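import Cfsg.Agent.SPOR.BU.Red

/-!
The quotient `C(d) / ⟨d⟩` has an involution with centralizer `2^{1+20}.U₆(2).2`.
-/

set_option autoImplicit false

namespace CL.BU

open CL.LE CL.LX CL.MSS QuadraticMap Module MulAction Cfsg

variable {G : Type*} [Group G] [Finite G] {D : Set G} {Q : G → Subgroup G} {τ : G}
  {V : Type*} [AddCommGroup V] [Module (ZMod 2) V] {κ : G → V} {ρ : Cz τ →* (V ≃ₗ[ZMod 2] V)}
  {q : QuadraticForm (ZMod 2) V} {Γ0 : Subgroup (V ≃ₗ[ZMod 2] V)} {e : V}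

theorem card_CQ {Q0 : Subgroup G} (f : Fr τ Q0 κ ρ q) (b : BL q ρ.range Γ0 e) {d : G} (hd : d ∈ Q0)
    (de : κ d = e) : Nat.card ↥(Q0 ⊓ Cz d) = 2 ^ 22 := by
  have := f.finite
  have a : Q0 ⊓ Cz d = f.pre (perp q (Submodule.span (ZMod 2) {κ d})) := by
    ext y
    rw [Subgroup.mem_inf, mem_Cz, f.mem_pre, mem_perp_span]
    exact and_congr_right fun hy => by rw [← f.comm_iff d hd y hy, eq_comm]
  have h1 := finrank_perp f.nondeg (Submodule.span (ZMod 2) {κ d})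
  rw [finrank_span_singleton (de ▸ b.ne), b.dim] at h1
  rw [a, f.card_pre_pow, h1]

theorem bar (h : LF D Q 11) (hτ : τ ∈ D) (f : Fr τ (Q τ) κ ρ q) (b : BL q ρ.range Γ0 e)
    {d : G} (hd : d ∈ Q τ) (de : κ d = e)
    (hk : ∃ k, k * d = d * k ∧ k * τ * k⁻¹ ∈ Q τ ∧ k * τ * k⁻¹ ≠ τ)
    {Y : Type*} [Group Y] [Finite Y] (p : Cz d →* Y) (hp : Function.Surjective p)
    (p1 : ∀ x, p x = 1 ↔ (x : G) = 1 ∨ (x : G) = d) :
    ∃ z : Y, orderOf z = 2 ∧ generalizedFittingSubgroup (Cz z) = pCore 2 (Cz z) ∧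
      IsExtraspecial 2 (pCore 2 (Cz z)) ∧ Nat.card (pCore 2 (Cz z)) = 2 ^ 21 ∧
      (∃ g : Y, g * z * g⁻¹ ∈ (pCore 2 (Cz z)).map (Cz z).subtype ∧ g * z * g⁻¹ ≠ z) ∧
      ∃ H : Subgroup (Cz z), H.index = 2 ∧ pCore 2 (Cz z) ≤ H ∧
        ∃ μ : H →* Γ0, Function.Surjective μ ∧ (pCore 2 (Cz z)).subgroupOf H = μ.ker := by
  have := f.finite
  have dD := notMem_D h hτ f b hd de
  have d1 : d ≠ 1 := fun a => b.ne (by rw [← de, a, f.κ_one])
  have d2 : d * d = 1 := (f.sq_iff d hd).2 (de ▸ b.sing)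
  have dτ : d * τ = τ * d := f.z_comm d hd
  have τd : τ ≠ d := fun a => dD (a ▸ hτ)
  have nD : τ * d ∉ D := dτ ▸ mul_notMem h hτ hd d1 dD
  let τ' : Cz d := ⟨τ, mem_Cz.2 dτ.symm⟩
  have peq : ∀ x y : Cz d, p x = p y ↔ (x : G) = y ∨ (x : G) = y * d := fun x y => by
    rw [eq_comm, ← inv_mul_eq_one, ← map_inv, ← map_mul, p1]
    change (y : G)⁻¹ * x = 1 ∨ (y : G)⁻¹ * x = d ↔ _
    rw [inv_mul_eq_one, inv_mul_eq_iff_eq_mul, eq_comm]
  have pD : ∀ x : Cz d, p (x * τ' * x⁻¹) = p τ' → (x : G) * τ * (x : G)⁻¹ = τ := fun x a =>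
    ((peq _ _).1 a).resolve_right fun c => nD (c ▸ h.conj hτ x)
  have hB : ∀ x : (Cz (p τ')).comap p, ((x : Cz d) : G) * τ = τ * (x : Cz d) := fun x =>
    mul_inv_eq_iff_eq_mul.1 (pD x (by
      rw [map_mul, map_mul, map_inv, mem_Cz.1 x.2, mul_inv_cancel_right]))
  have mB : ∀ {x : G} (h1 : x * d = d * x), x * τ = τ * x →
      (⟨x, mem_Cz.2 h1⟩ : Cz d) ∈ (Cz (p τ')).comap p := fun h1 h2 =>
    mem_Cz.2 (by rw [← map_mul, ← map_mul]; exact congrArg p (Subtype.ext h2))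
  let ψ : (Cz (p τ')).comap p →* Cz (p τ') := p.subgroupComap _
  have hψ : Function.Surjective ψ := p.subgroupComap_surjective_of_surjective _ hp
  have ψeq : ∀ x y, ψ x = ψ y ↔ ((x : Cz d) : G) = (y : Cz d) ∨ ((x : Cz d) : G) = (y : Cz d) * d :=
    fun x y => Subtype.ext_iff.trans (peq _ _)
  let ι : (Cz (p τ')).comap p →* Cz τ :=
    ((Cz d).subtype.comp (Subgroup.subtype _)).codRestrict _ fun x => mem_Cz.2 (hB x)
  have hι : ∀ x, (ι x : G) = (x : Cz d) := fun _ => rfl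
  obtain ⟨χ, hχ⟩ : ∃ χ : Cz (p τ') →* (V ≃ₗ[ZMod 2] V), ∀ x, χ (ψ x) = ρ (ι x) := by
    refine ⟨ψ.liftOfSurjective hψ ⟨ρ.comp ι, fun x hx => ?_⟩, fun x =>
      MonoidHom.liftOfRightInverse_comp_apply _ _ _ _ x⟩
    rw [MonoidHom.mem_ker, MonoidHom.comp_apply, f.rho_eq_one, hι]
    rcases (p1 x).1 (congrArg Subtype.val hx) with a | a <;> rw [a]
    exacts [one_mem _, hd]
  have F1 : ∀ c, χ c ∈ ρ.range ∧ χ c e = e := fun c => by
    obtain ⟨x, rfl⟩ := hψ c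
    rw [hχ, ← de, ← f.κ_conj _ d hd, hι, Cz_comm, mul_inv_cancel_right]
    exact ⟨⟨_, rfl⟩, rfl⟩
  have F2 : ∀ g ∈ ρ.range, g e = e → ∃ c, χ c = g := by
    rintro _ ⟨c, rfl⟩ hc
    obtain ⟨y, hy, a⟩ := f.exists_centralizes hd (de ▸ b.ne) (c := c) (de ▸ hc)
    let y' : Cz τ := ⟨y, mem_Cz.2 (f.z_comm y hy)⟩
    refine ⟨ψ ⟨_, mB a (Cz_comm (y' * c))⟩, ?_⟩
    rw [hχ, show ι ⟨_, mB a (Cz_comm (y' * c))⟩ = y' * c from rfl, map_mul,
      (f.rho_eq_one y').2 hy, one_mul]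
  have F3 : ∀ x, ψ x ∈ χ.ker ↔ ((x : Cz d) : G) ∈ Q τ := fun x => by
    rw [MonoidHom.mem_ker, hχ, f.rho_eq_one, hι]
  let zc : (Cz (p τ')).comap p := ⟨τ', mB dτ.symm rfl⟩
  have cq : ∀ x y : (Cz (p τ')).comap p, ((x : Cz d) : G) ∈ Q τ → ((y : Cz d) : G) ∈ Q τ →
      ψ x * ψ y = ψ y * ψ x → ((x : Cz d) : G) * (y : Cz d) = (y : Cz d) * (x : Cz d) := by
    intro x y hx hy a
    rw [← map_mul, ← map_mul, ψeq] at a
    refine a.resolve_right fun c => ?_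
    change ((x : Cz d) : G) * (y : Cz d) = (y : Cz d) * (x : Cz d) * d at c
    rcases f.comm _ hx _ hy with a | a <;> rw [a] at c
    · exact d1 (left_eq_mul.1 c)
    · exact τd (mul_left_cancel c)
  have es : ES χ.ker (ψ zc) := by
    refine ⟨(F3 _).2 f.z_mem, ?_, ?_, ?_, ?_, ?_, ?_, ?_⟩
    · intro a
      rcases (p1 _).1 (congrArg Subtype.val a) with c | c
      exacts [f.z_ne c, τd c]
    · rw [← map_mul, show zc * zc = 1 from Subtype.ext (Subtype.ext f.z_sq), map_one]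
    · intro x _
      exact Subtype.ext (mem_Cz.1 x.2)
    · intro x hx hc
      obtain ⟨x, rfl⟩ := hψ x
      rw [F3] at hx
      have := f.toES.center_centralizer hd hx fun y hy a =>
        cq x ⟨_, mB a.symm (f.z_comm y hy)⟩ hx hy (hc _ ((F3 _).2 hy))
      rw [← map_one ψ, ψeq, ψeq]
      rcases this with a | a | a | a
      exacts [Or.inl (Or.inl a), Or.inr (Or.inl a), Or.inl (Or.inr (a.trans (one_mul d).symm)),
        Or.inr (Or.inr (a.trans dτ))]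
    · intro x hx y hy
      obtain ⟨x, rfl⟩ := hψ x
      obtain ⟨y, rfl⟩ := hψ y
      rw [F3] at hx hy
      rw [← map_mul, ← map_mul, ← map_mul]
      exact (f.comm _ hx _ hy).imp (fun a => congrArg ψ (Subtype.ext (Subtype.ext a)))
        fun a => congrArg ψ (Subtype.ext (Subtype.ext a))
    · intro x hx
      obtain ⟨x, rfl⟩ := hψ x
      rw [F3] at hx
      rw [← map_mul, ← map_one ψ]
      exact (f.sq _ hx).imp (fun a => congrArg ψ (Subtype.ext (Subtype.ext a)))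
        fun a => congrArg ψ (Subtype.ext (Subtype.ext a))
    · obtain ⟨x, hx, y, hy, a1, a2, a3⟩ := f.toES.exists_not_comm_centralizer
        (eight_lt_of_width h.two_le (h.card hτ)) hd
      exact ⟨ψ ⟨_, mB a1.symm (f.z_comm x hx)⟩, (F3 _).2 hx, ψ ⟨_, mB a2.symm (f.z_comm y hy)⟩,
        (F3 _).2 hy, fun a => a3 (cq _ _ hx hy a)⟩
  have mapn : ∀ K : Subgroup (Cz (p τ')), K.Normal → K.map χ ≤ ρ.range ∧ (∀ l ∈ K.map χ, l e = e) ∧
      ∀ g ∈ ρ.range, g e = e → ∀ l ∈ K.map χ, g * l * g⁻¹ ∈ K.map χ := fun K hK => by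
    refine ⟨?_, ?_, fun g hg ge => ?_⟩
    · rintro _ ⟨c, -, rfl⟩; exact (F1 c).1
    · rintro _ ⟨c, -, rfl⟩; exact (F1 c).2
    · obtain ⟨c, rfl⟩ := F2 g hg ge
      rintro _ ⟨k, k1, rfl⟩
      exact ⟨_, hK.conj_mem k k1 c, by rw [map_mul, map_mul, map_inv]⟩
  have hN : pCore 2 (Cz (p τ')) = χ.ker := by
    refine le_antisymm (fun c hc => ?_) (CL.le_pCore es.isPGroup)
    obtain ⟨a1, a2, a3⟩ := mapn (pCore 2 (Cz (p τ'))) inferInstance
    exact b.o2 _ a1 a2 ((CL.isPGroup_pCore 2 _).map χ) a3 _ ⟨c, hc, rfl⟩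
  have hC : Subgroup.centralizer (χ.ker : Set (Cz (p τ'))) ≤ χ.ker := fun c hc => by
    obtain ⟨a1, a2, a3⟩ := mapn (Subgroup.centralizer (χ.ker : Set (Cz (p τ')))) inferInstance
    refine b.triv a1 a2 ?_ a3 _ ⟨c, hc, rfl⟩
    rintro _ ⟨c, hc, rfl⟩ w hw
    obtain ⟨c, rfl⟩ := hψ c
    obtain ⟨x, hx, rfl⟩ := f.κ_surj w
    have x1 : x * d = d * x := ((f.comm_iff d hd x hx).2 (de ▸ hw)).symm
    have a := hc (ψ ⟨_, mB x1 (f.z_comm x hx)⟩) ((F3 _).2 hx)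
    rw [← map_mul, ← map_mul, eq_comm, ψeq] at a
    rw [hχ, ← f.κ_commutator _ hx, hι]
    change ((c : Cz d) : G) * x = x * (c : Cz d) ∨ ((c : Cz d) : G) * x = x * (c : Cz d) * d at a
    rcases a with a | a
    · left; rw [a, mul_inv_cancel_right, mul_inv_cancel, f.κ_one]
    · right
      rw [a, mul_assoc x, Cz_comm (c : Cz d), ← mul_assoc, mul_inv_cancel_right, x1,
        mul_inv_cancel_right, de]
  have hcard : Nat.card χ.ker = 2 ^ 21 := by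
    let φ : ↥(Q τ ⊓ Cz d) →* Cz (p τ') := ψ.comp
      { toFun := fun x => ⟨⟨x, x.2.2⟩, mB (mem_Cz.1 x.2.2) (f.z_comm _ x.2.1)⟩
        map_one' := rfl
        map_mul' := fun _ _ => rfl }
    have r : φ.range = χ.ker := by
      ext c
      constructor
      · rintro ⟨x, rfl⟩; exact (F3 _).2 x.2.1
      · intro hc
        obtain ⟨x, rfl⟩ := hψ c
        exact ⟨⟨(x : Cz d), (F3 _).1 hc, (x : Cz d).2⟩, rfl⟩
    have k : φ.ker = Subgroup.zpowers ⟨d, Subgroup.mem_inf.2 ⟨hd, mem_Cz.2 rfl⟩⟩ := by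
      ext x
      rw [mem_zpowers_of_sq (Subtype.ext d2), Subtype.ext_iff, Subtype.ext_iff, MonoidHom.mem_ker]
      exact Subtype.ext_iff.trans (p1 _)
    have := φ.ker.card_mul_index
    rw [Subgroup.index_ker, r, card_CQ f b hd de, k, Nat.card_zpowers, Subgroup.orderOf_mk,
      orderOf_eq_two_of d1 d2] at this
    omega
  refine ⟨p τ', ?_, Comp.fstar_eq_pCore_of_centralizer_le es.isPGroup hC, hN ▸ es.isExtraspecial,
    hN ▸ hcard, ?_, Γ0.comap χ, ?_, ?_, χ.subgroupComap Γ0, ?_, ?_⟩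
  · exact orderOf_eq_two_of (fun a => es.z_ne (Subtype.ext a)) (congrArg Subtype.val es.z_sq)
  · obtain ⟨k, k1, k2, k3⟩ := hk
    have a : k * τ * k⁻¹ * d = d * (k * τ * k⁻¹) :=
      mem_Cz.1 (⟨k, mem_Cz.2 k1⟩ * τ' * (⟨k, mem_Cz.2 k1⟩ : Cz d)⁻¹).2
    refine ⟨p ⟨k, mem_Cz.2 k1⟩, ⟨ψ ⟨_, mB a (f.z_comm _ k2)⟩, hN ▸ (F3 _).2 k2, ?_⟩, fun c => ?_⟩
    · rw [← map_inv, ← map_mul, ← map_mul]; rfl
    · rw [← map_inv, ← map_mul, ← map_mul] at c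
      exact k3 (pD _ c)
  · obtain ⟨a, a1, a2, a3⟩ := b.idx
    obtain ⟨c, rfl⟩ := F2 a a1 a2
    refine Subgroup.index_eq_two_iff.2 ⟨c, fun x => ?_⟩
    rw [Subgroup.mem_comap, Subgroup.mem_comap, map_mul]
    exact a3 _ (F1 x).1 (F1 x).2
  · intro c hc
    rw [hN, MonoidHom.mem_ker] at hc
    rw [Subgroup.mem_comap, hc]; exact one_mem _
  · intro g
    obtain ⟨c, hc⟩ := F2 g (b.le g.2) (b.fix0 g g.2)
    exact ⟨⟨c, by rw [Subgroup.mem_comap, hc]; exact g.2⟩, Subtype.ext hc⟩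
  · ext c
    rw [hN, Subgroup.mem_subgroupOf, MonoidHom.mem_ker, MonoidHom.mem_ker, Subtype.ext_iff]; rfl

end CL.BU
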