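import Cfsg.Agent.SPOR.BU.Frm

/-!
Modules of degree 22 over `F₂` of the second Conway group: uniqueness, and the distinguished vector
in the presence of an invariant quadratic form.
-/

set_option autoImplicit false
set_option maxRecDepth 100000
set_option linter.unusedSectionVars false

namespace CL.BU

open Finset Matrix CL.LE QuadraticMap
open CL.CE (ev ev_nil ev_cons ev_append ev_singleton ev_mem)

variable {Γ : Type*} [Group Γ] {g : ℕ → Γ} {V : Type*} [AddCommGroup V] [Module (ZMod 2) V]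
  [DistribMulAction Γ V] {W : Type*} [AddCommGroup W] [Module (ZMod 2) W] [DistribMulAction Γ W]

variable (Γ) in
/-- the elements commuting with a linear map -/
def EqS (f : W ≃ₗ[ZMod 2] V) : Subgroup Γ where
  carrier := {a | ∀ x, f (a • x) = a • f x}
  one_mem' x := by rw [one_smul, one_smul]
  mul_mem' := fun {a b} ha hb x => by rw [mul_smul, mul_smul, ha, hb]
  inv_mem' := fun {a} ha x => by rw [eq_inv_smul_iff, ← ha, smul_inv_smul]

theorem Md.mem_eig (M : Md g V) {j : Fin 10} (hj : j ≠ 0) {u : V}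
    (h0 : u + g 0 • u + g 0 • g 0 • u = 0)
    (h : ∀ n < 27, X (jx j) ⬝ᵥ vc n = 0 → ep g (vc n) • u = u) : u ∈ Eig g V (X (jx j)) := by
  rw [← sum_pj (g := g) u, sum_eq_single (jx j) (fun i _ hi => ?_) (by simp)]
  · exact M.pj_mem _ u
  · rcases K_spec j hj i hi with e | e | ⟨n, hn, e1, e2⟩
    exacts [M.pj_big e u, M.pj_of_nz (ep_one (g := g) ▸ h0) e, M.pj_of_fix (h n hn e1) e2]

theorem Md.exists_equiv (M : Md g V) (N : Md g W) {d : V} {e : W} (D : Dv g d) (E : Dv g e) :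
    ∃ f : W ≃ₗ[ZMod 2] V, f e = d ∧ ∀ a < 9, g a ∈ EqS Γ f := by
  obtain ⟨v, F⟩ := M.exists_fm
  obtain ⟨w, G⟩ := N.exists_fm
  obtain ⟨b, hb⟩ := M.exists_basis D F
  obtain ⟨c, hc⟩ := N.exists_basis E G
  let f := c.equiv b (Equiv.refl _)
  have hf : ∀ p, f (fam g w e p) = fam g v d p := fun p => by
    rw [← hb, ← hc]; exact c.equiv_apply p b _
  have f0 : ∀ j, f (w j) = v j := fun j => hf (some j, false)
  have f1 : ∀ j, f (ep g (HH j) • w j) = ep g (HH j) • v j := fun j => hf (some j, true)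
  have f2 : f e = d := hf (none, false)
  have f3 : f (g 7 • e) = g 7 • d := hf (none, true)
  have hm : ∀ n : Γ, (∀ j, f (n • w j) = n • v j) →
      (∀ j, f (n • ep g (HH j) • w j) = n • ep g (HH j) • v j) → f (n • e) = n • d →
      f (n • g 7 • e) = n • g 7 • d → n ∈ EqS Γ f := fun n h1 h2 h3 h4 =>
    N.span E G (K := AddMonoidHom.eqLocus
      (f.toAddEquiv.toAddMonoidHom.comp (DistribSMul.toAddMonoidHom W n))
      ((DistribSMul.toAddMonoidHom V n).comp f.toAddEquiv.toAddMonoidHom)) fun p => by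
      change f (n • _) = n • f _
      rw [hf]
      obtain ⟨_ | j, _ | _⟩ := p
      exacts [h3, h4, h1 j, h2 j]
  have fE : ∀ j a, f (ep g a • w j) = ep g a • v j := fun j a => by
    rcases (by decide : ∀ x y : ZMod 3, y ≠ 0 → x = 0 ∨ x = y ∨ x = y + y) (X (jx j) ⬝ᵥ a) _
      (HH_spec j).1 with h | h | h
    · rw [(F.eig j a).1 h, (G.eig j a).1 h, f0]
    · rw [M.eig_eq (F.eig j) h, N.eig_eq (G.eig j) h, f1]
    · rw [← dotProduct_add] at h
      rw [M.eig_eq (F.eig j) h, N.eig_eq (G.eig j) h, ← M.ep_smul, ← N.ep_smul,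
        ← v2_add_eq_zero.1 ((F.eig j _).2 (HH_spec j).1),
        ← v2_add_eq_zero.1 ((G.eig j _).2 (HH_spec j).1), map_add, f0, f1]
  have mE : ∀ a, ep g a ∈ EqS Γ f := fun a => hm _ (fE · a)
    (fun j => by rw [M.ep_smul, N.ep_smul, fE]) (by rw [fix0 D.eig, fix0 E.eig, f2])
    (by rw [fix0 (M.e2 D), fix0 (N.e2 E), f3])
  have mN : ∀ k < 5, f (ev g (NW k) • e) = ev g (NW k) • d →
      f (ev g (NW k) • g 7 • e) = ev g (NW k) • g 7 • d → ev g (NW k) ∈ EqS Γ f :=
    fun k hk => hm _ (fun j => by rw [M.NW_fm F hk, N.NW_fm G hk, f0]) fun j => by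
      obtain ⟨a, ha⟩ : ∃ a, MM k *ᵥ a = HH j := by
        unfold HH
        split_ifs
        exacts [(MM_surj k hk 27 (by simp)).elim fun n h => ⟨_, h.2⟩,
          (MM_surj k hk 1 (by simp)).elim fun n h => ⟨_, h.2⟩]
      rw [← ha, ← mul_smul, ← mul_smul, ← M.rel' hk, mul_smul, mul_smul, M.NW_fm F hk, N.NW_fm G hk, fE]
  have m03 : ∀ a < 4, g a ∈ EqS Γ f := fun a ha => ep_pow (g := g) ha ▸ mE _
  have m4 : g 4 ∈ EqS Γ f := ev_singleton g 4 ▸ mN 4 (by omega)
    (by simp only [NW, List.getD_cons_succ, List.getD_cons_zero, ev_singleton, D.i, E.i, f2])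
    (by simp only [NW, List.getD_cons_succ, List.getD_cons_zero, ev_singleton, M.i2 D, N.i2 E, f3])
  have m5 : g 5 ∈ EqS Γ f := ev_singleton g 5 ▸ mN 0 (by omega)
    (by simp only [NW, List.getD_cons_zero, ev_singleton, M.fixA (.inl rfl) D.eig,
      N.fixA (.inl rfl) E.eig, f2])
    (by simp only [NW, List.getD_cons_zero, ev_singleton, M.fixA (.inl rfl) (M.e2 D),
      N.fixA (.inl rfl) (N.e2 E), f3])
  have m6 : g 6 ∈ EqS Γ f := ev_singleton g 6 ▸ mN 1 (by omega)
    (by simp only [NW, List.getD_cons_succ, List.getD_cons_zero, ev_singleton,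
      M.fixA (.inr rfl) D.eig, N.fixA (.inr rfl) E.eig, f2])
    (by simp only [NW, List.getD_cons_succ, List.getD_cons_zero, ev_singleton,
      M.fixA (.inr rfl) (M.e2 D), N.fixA (.inr rfl) (N.e2 E), f3])
  have m7 : g 7 ∈ EqS Γ f := ev_singleton g 7 ▸ mN 2 (by omega)
    (by simp only [NW, List.getD_cons_succ, List.getD_cons_zero, ev_singleton, f3])
    (by simp only [NW, List.getD_cons_succ, List.getD_cons_zero, ev_singleton, M.n2 D, N.n2 E, f2])
  have mz : ev g [8, 8] ∈ EqS Γ f := mN 3 (by omega)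
    (by simp only [NW, List.getD_cons_succ, List.getD_cons_zero, ev_cons, ev_nil, mul_smul, one_smul,
      D.r, E.r, f2])
    (by simp only [NW, List.getD_cons_succ, List.getD_cons_zero, ev_cons, ev_nil, mul_smul, one_smul,
      M.z2 D, N.z2 E, f3])
  have m8 : ∀ a < 8, g a ∈ EqS Γ f := fun a ha => by
    by_cases h : a < 4
    · exact m03 a h
    · obtain rfl | rfl | rfl | rfl : a = 4 ∨ a = 5 ∨ a = 6 ∨ a = 7 := by omega
      exacts [m4, m5, m6, m7]
  have f4 : f (g 8 • g 7 • e) = g 8 • g 7 • d := by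
    rw [M.sum5 D, N.sum5 E, ← M.v0 D F, ← N.v0 E G, map_add, map_add, f0, f2, f3]
  have c0 : ∀ j < 3, g 8 * g j * (g 8)⁻¹ ∈ EqS Γ f := fun j hj => by
    have k : ∀ u : List ℕ, ([8, j], u ++ [8]) ∈ RL → (∀ a ∈ u, a < 8) →
        g 8 * g j * (g 8)⁻¹ ∈ EqS Γ f := fun u h1 h2 => by
      have := M.eq _ _ h1
      rw [ev_append, ev_cons, ev_singleton, ev_singleton] at this
      rw [this, mul_inv_cancel_right]
      exact ev_mem fun a ha => m8 a (h2 a ha)
    interval_cases j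
    exacts [k [0] (by decide) (by decide), k [5, 5, 6, 5, 3, 6, 5, 5, 6, 5] (by decide) (by decide),
      k [2] (by decide) (by decide)]
  have c1 : ∀ n < 27, g 8 * ep g (vc n) * (g 8)⁻¹ ∈ EqS Γ f := fun n hn => by
    let K := (EqS Γ f).comap (MulAut.conj (g 8)).toMonoidHom
    change ep g (vc n) ∈ K
    rw [ep_eq, (by decide : ∀ n < 27, (vc n 3).val = 0) n hn, pow_zero, mul_one]
    have k : ∀ j < 3, g j ∈ K := c0
    exact mul_mem (mul_mem (pow_mem (k 0 (by omega)) _) (pow_mem (k 1 (by omega)) _))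
      (pow_mem (k 2 (by omega)) _)
  have c2 : g 8 * g 4 * (g 8)⁻¹ ∈ EqS Γ f := by
    have h1 := M.eq [4, 8] [8, 8, 8, 4]
    have h2 := M.eq [8, 8, 8, 8] []
    have h3 := M.eq [4, 4] []
    simp only [ev_cons, ev_nil, mul_one] at h1 h2 h3 mz
    rw [show (g 8)⁻¹ = g 4 * (g 8 * g 4) by
      rw [inv_eq_iff_mul_eq_one, ← mul_assoc (g 4), h1]
      calc _ = g 8 * (g 8 * (g 8 * g 8)) * (g 4 * g 4) := by group
        _ = 1 := by rw [h2, h3, one_mul], mul_assoc, ← mul_assoc (g 4), h3, one_mul, ← mul_assoc]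
    exact mul_mem mz m4
  have c3 : ∀ j ≠ 0, f (g 8 • w j) = g 8 • v j := fun j hj => by
    have k : ∀ a, g 8 * a * (g 8)⁻¹ ∈ EqS Γ f → ∀ x,
        a • (g 8)⁻¹ • f (g 8 • x) = (g 8)⁻¹ • f (g 8 • a • x) := fun a ha x => by
      rw [eq_inv_smul_iff, ← mul_smul, ← mul_smul, ← ha, mul_smul, mul_smul, inv_smul_smul]
    rw [← inv_smul_eq_iff]
    refine M.uniq F (M.mem_eig hj ?_ fun n hn h => by rw [k _ (c1 n hn), (G.eig j _).1 h])
      (fun h => G.ne j (eq_zero_of_smul (f.map_eq_zero_iff.1 (eq_zero_of_smul h))))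
      (by rw [k _ c2, G.fix])
    have := (G.eig j _).2 (HH_spec j).1
    rw [HH, if_neg hj, ep_one] at this
    rw [k _ (c0 0 (by omega)), k _ (c0 0 (by omega)), ← smul_add, ← smul_add, ← map_add, ← map_add,
      ← smul_add, ← smul_add, this, smul_zero, map_zero, smul_zero]
  refine ⟨f, f2, fun a ha => ?_⟩
  by_cases h : a < 8
  · exact m8 a h
  obtain rfl : a = 8 := by omega
  refine hm _ (fun j => ?_) (fun j => ?_) (by rw [D.r, E.r, f2]) f4 <;> by_cases hj : j = 0
  · rw [hj, M.v0 D F, N.v0 E G, smul_add, smul_add, M.r4 D, M.r5 D, N.r4 E, N.r5 E, map_add,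
      m03 3 (by omega), m03 3 (by omega), f4]
  · exact c3 j hj
  · rw [hj, HH, if_pos rfl, ep_27, M.v0 D F, N.v0 E G]
    simp only [smul_add, map_add, M.s5 D, N.s5 E, M.r5 D, N.r5 E, M.z2 D, N.z2 E]
    rw [m03 3 (by omega), f4, f3]
  · have a1 := M.sm [8, 0] [0, 8] (v j)
    have a2 := N.sm [8, 0] [0, 8] (w j)
    simp only [List.foldr] at a1 a2
    rw [HH, if_neg hj, ep_one, a1, a2, m03 0 (by omega), c3 j hj]

namespace Md

variable (M : Md g V) {q : QuadraticForm (ZMod 2) V} (nd : ∀ v, (∀ w, polar q v w = 0) → v = 0)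
  (hq : ∀ (a : Γ) (v : V), q (a • v) = q v)
include M hq

omit M in
theorem polar_smul (a : Γ) (u v : V) : polar q (a • u) (a • v) = polar q u v :=
  polar_isometry q (smul_add a) (hq a) u v

omit M in
theorem orth_of {a : Γ} {u v : V} (h1 : a • u = u) (h2 : v + a • v + a • a • v = 0) :
    polar q u v = 0 := by
  have e : ∀ x, polar q u (a • x) = polar q u x := fun x => by rw [← polar_smul hq a u x, h1]
  have := congrArg (polar q u) h2
  rwa [polar_add_right, polar_add_right, e, e, e, v2_add_self, zero_add, polar_zero_right] at this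

omit M in
theorem orth {i k : Fin 41} (h : i ≠ k) {u v : V} (hu : u ∈ Eig g V (X i)) (hv : v ∈ Eig g V (X k)) :
    polar q u v = 0 := by
  obtain ⟨n, -, ⟨h1, h2⟩ | ⟨h1, h2⟩⟩ := X_sep i k h
  · exact orth_of hq ((hu _).1 h1) ((hv _).2 h2)
  · rw [polar_comm]; exact orth_of hq ((hv _).1 h1) ((hu _).2 h2)

include nd

theorem nd_eig {i : Fin 41} {u : V} (hu : u ∈ Eig g V (X i))
    (h : ∀ w ∈ Eig g V (X i), polar q u w = 0) : u = 0 :=
  nd u fun w => by
    rw [← sum_pj (g := g) w]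
    change polarBilin q u _ = 0
    rw [map_sum]
    refine sum_eq_zero fun k _ => ?_
    by_cases e : i = k
    · exact h _ (e ▸ M.pj_mem k w)
    · exact orth hq e hu (M.pj_mem k w)

theorem exists_dv : ∃ d : V, Dv g d := by
  have k : ∀ H : AddSubgroup V, (∀ v ∈ H, g 8 • v ∈ H) → (∀ v ∈ H, g 3 • v ∈ H) → (∃ v ∈ H, v ≠ 0) →
      ∃ v ∈ H, v ≠ 0 ∧ g 8 • v = v ∧ g 8 • g 3 • g 3 • v = g 3 • g 3 • v ∧ g 8 • g 3 • v = g 3 • v :=
    fun H h8 h3 h => by
    obtain ⟨v, ⟨⟨⟨h1, -⟩, h2⟩, h4⟩, h0⟩ := fix2 (c := g 3 * g 8 * g 3 * g 3)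
      (H := (H ⊓ Fx V (g 8 * g 8)) ⊓ Fx V (g 8)) (fun v ⟨⟨a, b⟩, c⟩ => by
        have c' : g 8 • v = v := c
        have e : g 8 • g 3 • g 8 • g 3 • g 3 • v = g 3 • g 8 • g 3 • g 3 • v := by
          simpa only [List.foldr, c'] using M.sm [8, 3, 8, 3, 3] [3, 8, 3, 3, 8, 8, 8] v
        simp only [mul_smul]
        exact ⟨⟨h3 _ (h8 _ (h3 _ (h3 _ a))), mem_Fx.2 (by rw [mul_smul, e, e])⟩, e⟩)
      (fun v ⟨_, c⟩ => by
        have c' : g 8 • v = v := c
        simpa only [List.foldr, c', mul_smul] using M.sm [3, 8, 3, 3, 3, 8, 3, 3] [8, 8] v)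
      (fix2 (c := g 8) (fun v ⟨a, b⟩ => ⟨h8 v a, mem_Fx.2 (by
        rw [← mul_smul, mul_assoc, mul_smul, mem_Fx.1 b])⟩) (fun v ⟨_, b⟩ => by
        rw [← mul_smul]; exact b) (fix2 (c := g 8 * g 8) (fun v hv => by
          rw [mul_smul]; exact h8 _ (h8 _ hv)) (fun v _ => by
          simp only [mul_smul]; exact M.sm [8, 8, 8, 8] [] v) h))
    have a1 : g 8 • v = v := h2
    have a2 : g 3 • g 8 • g 3 • g 3 • v = v := by simpa only [mem_Fx, mul_smul] using mem_Fx.1 h4
    have a3 : g 3 • g 3 • g 8 • g 3 • v = v := by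
      simpa only [List.foldr, a1, a2] using M.sm [3, 3, 8, 3] [8, 3, 8, 3, 3, 8, 8] v
    refine ⟨v, h1, h0, a1, MulAction.injective (g 3) (a2.trans (M.sm [3, 3, 3] [] v).symm), ?_⟩
    exact (M.sm [3, 3, 3] [] _).symm.trans (congrArg (g 3 • ·) a3)
  have h1 : ∃ v ∈ Eig g V (X 0) ⊓ Fx V (g 8), v ≠ 0 := by
    obtain ⟨x, hx, x0⟩ := M.ex_ne (i := 0) (by decide)
    obtain ⟨y, hy, y0, a1, a2, a3⟩ := k (Fx V (g 0)) (fun v => M.mem_Y (by omega))
      (fun v => M.mem_Y (by omega)) ⟨x, fix0' hx (by omega), x0⟩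
    have e := M.Y_dec hy
    by_cases h : pj g 0 y = 0
    · rw [h, zero_add] at e
      have hy1 : y ∈ Eig g V (X 1) := e ▸ M.pj_mem 1 y
      obtain ⟨v, b1, b2, b3, -⟩ := k (Eig g V (X 0)) (fun v hv => by
        have c := M.Y_dec (M.mem_Y (a := 8) (by omega) (fix0' hv (by omega)))
        rw [c, M.nd_eig nd hq (M.pj_mem 1 (g 8 • v)) fun w hw => ?_, add_zero]
        · exact M.pj_mem 0 _
        have c1 : g 8 • w = w := by
          have := M.cases_eig (j := 0) hy1 y0 hw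
          rw [HH, if_pos rfl, ep_27] at this
          rcases this with rfl | rfl | rfl | rfl
          exacts [smul_zero _, a1, a3, by rw [smul_add, a1, a3]]
        have c2 := polar_smul hq (g 8) v w
        rwa [c1, orth hq (i := 0) (k := 1) (by decide) hv hw, c, polar_add_left,
          orth hq (k := 1) (by decide) (M.pj_mem 0 _) hw, zero_add] at c2)
        (fun v hv => by rwa [fix0' hv (by omega)]) ⟨x, hx, x0⟩
      exact ⟨v, ⟨b1, b3⟩, b2⟩
    · refine ⟨_, ⟨M.pj_mem 0 y, mem_Fx.2 ?_⟩, h⟩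
      have : pj g 0 y = y + g 3 • y + g 3 • g 3 • y := by
        nth_rw 2 3 4 [e]
        simp only [smul_add, fix0' (M.pj_mem 0 y) (j := 3) (by omega)]
        linear_combination (norm := abel) -nz1 (M.pj_mem 1 y) - v2_add_self (pj g 0 y)
      rw [this, smul_add, smul_add, a1, a2, a3]
  obtain ⟨d, ⟨⟨b1, b2⟩, b3⟩, b0⟩ := fix2 (c := g 4) (H := Eig g V (X 0) ⊓ Fx V (g 8)) (fun v ⟨a, b⟩ => ⟨by
    simpa [NW, ev_singleton] using M.eig0_NW (k := 4) (by omega) a, mem_Fx.2 (by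
      have c := M.sm [4, 8] [8, 8, 8, 4] v
      have c' := M.sm [8, 8, 8, 8] [] (g 4 • v)
      simp only [List.foldr, mem_Fx.1 b] at c c'
      nth_rw 1 [c]
      exact c')⟩) (fun v _ => M.sm [4, 4] [] v) h1
  exact ⟨d, b0, b1, b3, b2⟩

variable {d : V} (D : Dv g d)
include D

theorem polar12 : polar q d (g 7 • d) = 1 := z2_eq_one fun h => D.ne (M.nd_eig nd hq D.eig fun w hw => by
  rcases M.cases0 D hw with rfl | rfl | rfl | rfl
  exacts [polar_zero_right _ _, polar_self_two q _, h, by rw [polar_add_right, h, polar_self_two, add_zero]])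

theorem q_dv : q d = 0 := by
  obtain ⟨v, F⟩ := M.exists_fm
  have h1 : q (v 0) = 1 := z2_eq_one fun h => F.ne 0 (M.nd_eig nd hq (F.eig 0) fun w hw => by
    have e : polar q (v 0) (ep g (HH 0) • v 0) = 0 := polar_eq_zero_of q h (by rw [hq, h]) (by
      rw [v2_add_eq_zero.1 ((F.eig 0 _).2 (HH_spec 0).1), hq, hq, h])
    rcases M.cases_eig (F.eig 0) (F.ne 0) hw with rfl | rfl | rfl | rfl
    exacts [polar_zero_right _ _, polar_self_two q _, e, by
      rw [polar_add_right, e, polar_self_two, add_zero]])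
  have h2 := congrArg q (M.sum5 D)
  rw [← M.v0 D F, q_add, q_add, hq, hq, M.polar12 nd hq D, h1,
    orth hq (i := 0) (by decide) (add_mem D.eig (M.e2 D)) (F.eig 0), v2_add_self] at h2
  rw [h2]; rfl

omit nd hq in
theorem fix_cases {u : V} (hu : u ∈ Eig g V (X 0)) (h : g 8 • u = u) : u = 0 ∨ u = d := by
  have e : g 8 • g 7 • d ≠ g 7 • d := fun e => M.ne45 D (by
    rw [e, fix0' (M.e2 D) (by omega), fix0' (M.e2 D) (by omega)])
  rcases M.cases0 D hu with a | a | rfl | rfl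
  exacts [.inl a, .inr a, absurd h e, absurd (by rwa [smul_add, D.r, add_right_inj] at h) e]

theorem triv_of_comm {y : Γ} (h2 : y * y = 1) (hc : ∀ a, ep g a * y = y * ep g a) (hd : y • d = d)
    (u : V) : y • u = u := by
  obtain ⟨v, F⟩ := M.exists_fm
  have k : ∀ {χ : A} {x : V}, x ∈ Eig g V χ → y • x ∈ Eig g V χ := fun hx => by
    have := eig_conj (M := 1) (n := y) (fun a => by rw [one_mulVec, hc]) hx
    rwa [vecMul_one] at this
  have c : ∀ a (x : V), y • ep g a • x = ep g a • y • x := fun a x => by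
    rw [← mul_smul, ← hc, mul_smul]
  have h1 : ∀ j, y • v j = v j := fun j => by
    have n := (F.eig j _).2 (HH_spec j).1
    have e : y • y • v j = v j := by rw [← mul_smul, h2, one_smul]
    rcases M.cases_eig (F.eig j) (F.ne j) (k (F.eig j)) with h | h | h | h
    · exact absurd (eq_zero_of_smul h) (F.ne j)
    · exact h
    · rw [h, c, h] at e
      rw [e, add_right_comm, v2_add_self, zero_add] at n
      exact absurd (eq_zero_of_smul n) (F.ne j)
    · rw [h, smul_add, c, h, smul_add, ← v2_add_eq_zero.1 n, add_comm (ep g (HH j) • v j),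
        v2_add_add_cancel] at e
      exact absurd (zero_of_both e n) (F.ne j)
  refine M.span D F (K := Fx V y) (fun p => mem_Fx.2 ?_) u
  obtain ⟨_ | j, _ | _⟩ := p
  · exact hd
  · change y • g 7 • d = g 7 • d
    rcases M.cases0 D (k (M.e2 D)) with h | h | h | h
    · exact absurd (eq_zero_of_smul (eq_zero_of_smul h)) D.ne
    · exact absurd (MulAction.injective y (hd.trans h.symm)) (M.ne12 D)
    · exact h
    · have := congrArg q h
      rw [q_add, hq, hq, M.q_dv nd hq D, M.polar12 nd hq D] at this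
      exact absurd this (by decide)
  · exact h1 j
  · exact (c _ _).trans (congrArg _ (h1 j))

end Md

end CL.BU
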