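import Cfsg.Agent.SPOR.BU.Dat
import Cfsg.Agent.SPOR.BU.Mod
import Cfsg.Agent.SPOR.Co1.Inv
import Cfsg.Agent.SPOR.Y5.LatB

/-!
The module of degree 22 over `F₂` of the second Conway group.
-/

set_option autoImplicit false
set_option maxRecDepth 100000

namespace CL.BU

open Cfsg Cfsg.Spor CL.K CL.CG CL.F2M CL.Co1T CL.Leech CL.MT CL.LE MulAction Matrix QuadraticMap
open CL.CE (ev ev_nil ev_cons ev_append ev_singleton ev_mem map_ev)

attribute [local irreducible] cd mu on ac MT.ap Co1T.okC aut LC LD cU xO xD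

/-- the second Conway group -/
abbrev C2 : Type := stabilizer Co0 leechU

/-- the embedding in the first Conway group -/
noncomputable def φ : C2 →* C1 := pr.comp (Subgroup.subtype _)

theorem φ_inj : Function.Injective φ := (injective_iff_map_eq_one _).2 fun a h => by
  rcases pr_eq_one.1 h with e | e
  · exact Subtype.ext e
  · have h1 : (a : Co0) • leechU = leechU := a.2
    rw [show (a : Co0) = neg1 from e, neg1_smul] at h1
    exact absurd (congrArg Subtype.val h1) (by decide +kernel)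

theorem okD' {a : ℕ} (ha : a < 9) :
    aut (lget LC a) • leechU = leechU ∧ cd (pr (aut (lget LC a))) = lget LD a := by
  have := allLt_iff.1 okD a ha
  rw [Bool.and_eq_true] at this
  exact ⟨Y5.fix_U (rep_aut (Co1T.okC_spec this.1).1) (eq_of_beq this.2), (Co1T.okC_spec this.1).2⟩

/-- the generators -/
noncomputable def gC (a : ℕ) : C2 := if h : a < 9 then ⟨aut (lget LC a), (okD' h).1⟩ else 1

theorem cd_gC {a : ℕ} (ha : a < 9) : cd (φ (gC a)) = lget LD a := by
  rw [gC, dif_pos ha]; exact (okD' ha).2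

theorem cd_word {w : List ℕ} (hw : ∀ a ∈ w, a < 9) (x : C1) :
    word mu LD w (cd x) = cd (x * φ (ev gC w)) := by
  induction w generalizing x with
  | nil => rw [ev_nil, map_one, mul_one]; rfl
  | cons a w ih =>
    change force (mu (cd x) (lget LD a)) (CG.word mu LD w) = _
    rw [force_eq, ← cd_gC (hw a List.mem_cons_self), isCode.map_mul,
      ih fun b hb => hw b (List.mem_cons_of_mem _ hb), ev_cons, map_mul, mul_assoc]

theorem cd_ev {w : List ℕ} (hw : ∀ a ∈ w, a < 9) : cd (φ (ev gC w)) = wv LD w := by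
  rw [wv, ← isCode.map_one, cd_word hw, one_mul]

theorem eq_of_eqW {v w : List ℕ} (h : eqW v w = true) : ev gC v = ev gC w := by
  simp only [eqW, Bool.and_eq_true, lall_iff] at h
  refine φ_inj (isCode.inj ?_)
  rw [cd_ev fun a ha => lt_of_blt (h.1.1 a ha), cd_ev fun a ha => lt_of_blt (h.1.2 a ha)]
  exact eq_of_beq h.2

theorem rl_gC : Rl gC := ⟨fun p hp => eq_of_eqW (RL_ok p hp), fun k hk a => eq_of_eqW (rel_ok k hk a)⟩

theorem card_C2 : Nat.card C2 = 42305421312000 := card_stab_32 sqNorm_U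

instance : Finite C2 := Nat.finite_of_card_ne_zero (by rw [card_C2]; norm_num)

theorem gen_top {K : Subgroup C2} (h : ∀ a < 9, gC a ∈ K) : K = ⊤ := by
  have hw : ∀ w ∈ WG, ∀ a ∈ w, a < 9 := by decide
  have h1 := chainV_le (K := ⊥) (H := K.map φ) (by decide) (fun c hc => by
      rw [lmap_eq] at hc
      obtain ⟨w, hw', rfl⟩ := List.mem_map.1 hc
      exact ⟨_, ⟨ev gC w, ev_mem fun a ha => h a (hw w hw' a ha), rfl⟩, cd_ev (hw w hw')⟩)
    bot_le (fun k hk _ _ => by rw [Subgroup.mem_bot.1 hk, one_smul]) chG_ok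
  rw [Subgroup.card_bot, mul_one, Subgroup.card_map_of_injective φ_inj] at h1
  exact Subgroup.eq_top_of_le_card _ (by rw [card_C2]; exact h1)

/-- the inner product with the fixed vector -/
noncomputable def lam : VV →ₗ[ZMod 2] ZMod 2 :=
  Fintype.linearCombination (ZMod 2) fun j => (form leechU (bv j) : ZMod 2)

theorem lam_κ (v : leechLattice) : lam (κ v) = form leechU v := by
  obtain ⟨z, hz⟩ := κ_eq_iff.1 (κ_sec (κ v))
  have h := congrArg (fun x => (form leechU x : ZMod 2)) hz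
  simp only [map_sub, map_add, two_nsmul, Int.cast_add, Int.cast_sub, CharTwo.add_self_eq_zero,
    sub_eq_zero] at h
  rw [← h, sec, map_sum, lam, Fintype.linearCombination_apply]
  simp

attribute [local irreducible] lam κ

theorem form_of {v : leechLattice} {n : ℤ} (h : dotInt (leechU : GolayPt → ℤ) v = 8 * n) :
    lam (κ v) = n := by
  have := eight_mul_form leechU v
  rw [lam_κ, show form leechU v = n by omega]

theorem dot_C2 (a : C2) (v : leechLattice) :
    dotInt (leechU : GolayPt → ℤ) ((a : Co0) • v : leechLattice) = dotInt (leechU : GolayPt → ℤ) v := by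
  rw [← dot_smul a leechU v, show (a : Co0) • leechU = leechU from a.2]

theorem φ_κ (a : C2) (v : leechLattice) : φ a • κ v = κ ((a : Co0) • v) := pr_smul a v

theorem lam_smul (a : C2) (x : VV) : lam (φ a • x) = lam x := by
  obtain ⟨v, rfl⟩ := κ_surj x
  have h1 := eight_mul_form leechU v
  rw [φ_κ, form_of ((dot_C2 a v).trans h1.symm), lam_κ]

/-- the lattice modulo two -/
noncomputable def τ0 : Representation (ZMod 2) C2 VV where
  toFun x := Matrix.toLin' (ρ (φ x)).1
  map_one' := by simp [Module.End.one_eq_id]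
  map_mul' x y := by simp [Matrix.toLin'_mul, Module.End.mul_eq_comp]

theorem τ0_apply (a : C2) (x : VV) : τ0 a x = φ a • x := rfl

/-- the hyperplane -/
noncomputable abbrev UU : Submodule (ZMod 2) VV := LinearMap.ker lam

/-- the fixed vector -/
noncomputable def ub : UU := ⟨κ leechU, form_of (n := 4) sqNorm_U⟩

theorem smul_ub (a : C2) : φ a • κ leechU = κ leechU := by
  rw [φ_κ, show (a : Co0) • leechU = leechU from a.2]

/-- the module of degree 22 -/
abbrev WW : Type := UU ⧸ Submodule.span (ZMod 2) {ub}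

noncomputable def τ1 : Representation (ZMod 2) C2 UU :=
  τ0.subrepresentation UU fun a x hx => by
    rw [Submodule.mem_comap, LinearMap.mem_ker, τ0_apply, lam_smul]; exact hx

theorem τ1_coe (a : C2) (x : UU) : (τ1 a x).1 = φ a • x.1 := rfl

theorem τ1_ub (a : C2) : τ1 a ub = ub := Subtype.ext ((τ1_coe a ub).trans (smul_ub a))

noncomputable def τ2 : Representation (ZMod 2) C2 WW :=
  τ1.quotient _ fun a => (Submodule.span_singleton_le_iff_mem _ _).2 (by
    rw [Submodule.mem_comap, τ1_ub]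
    exact Submodule.mem_span_singleton_self _)

instance : Finite WW := Quotient.finite _

noncomputable instance : DistribMulAction C2 WW := DistribMulAction.compHom WW τ2

theorem smul_mk (a : C2) (x : UU) : a • (Submodule.Quotient.mk x : WW) =
    Submodule.Quotient.mk ⟨φ a • x.1, (lam_smul a x).trans x.2⟩ := rfl

theorem mk_eq {x y : UU} : (Submodule.Quotient.mk x : WW) = Submodule.Quotient.mk y ↔
    x.1 = y.1 ∨ x.1 = y.1 + κ leechU := by
  rw [Submodule.Quotient.eq, v2_mem_span, sub_eq_zero, sub_eq_iff_eq_add', Subtype.ext_iff,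
    Subtype.ext_iff]
  rfl

theorem vcode_U : vcode (κ leechU) = 7792768 := by
  rw [← kv_enc (by rw [sqNorm_U]; norm_num), enc_U]; decide +kernel

theorem vcode_V : vcode (κ (nb 1)) = 5521504 := by
  rw [← kv_enc (by rw [sqNorm_nb]; norm_num), enc_nb]; decide +kernel

theorem lam_nb7 : lam (κ (nb 3)) = 1 := form_of (n := 1) Y5.dot_ab.2.2.1

theorem card_WW : Nat.card WW = 2 ^ 22 := by
  have h1 := lam.finrank_range_add_finrank_ker
  rw [LinearMap.range_eq_top.2 fun c => ⟨c • κ (nb 3), by rw [map_smul, lam_nb7, smul_eq_mul, mul_one]⟩,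
    finrank_top, Module.finrank_self, Module.finrank_fin_fun] at h1
  change 1 + Module.finrank (ZMod 2) UU = 24 at h1
  have h2 : Module.finrank (ZMod 2) WW + _ = Module.finrank (ZMod 2) UU :=
    (Submodule.span (ZMod 2) {ub}).finrank_quotient_add_finrank
  rw [finrank_span_singleton (fun e => by
    have := congrArg (fun x : UU => vcode x.1) e
    rw [show vcode ub.1 = _ from vcode_U] at this
    exact absurd (this.trans vcode_zero) (by norm_num))] at h2
  rw [card_v2, show Module.finrank (ZMod 2) WW = 22 by omega]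

/-- the distinguished vector -/
noncomputable def eW : WW := Submodule.Quotient.mk ⟨κ (nb 1), form_of (n := 2) Y5.dot_U_V⟩

theorem smul_eW {v w : List ℕ} (hv : ∀ a ∈ v, a < 9 := by decide) (hw : ∀ a ∈ w, a < 9 := by decide) :
    ev gC v • eW = ev gC w • eW ↔ ac (wv LD v) 5521504 = ac (wv LD w) 5521504 ∨
      ac (wv LD v) 5521504 = ac (wv LD w) 5521504 ^^^ 7792768 := by
  rw [eW, smul_mk, smul_mk, mk_eq, ← vcode_injective.eq_iff, ← vcode_injective.eq_iff, vcode_add,
    ← ac_cd, ← ac_cd, cd_ev hv, cd_ev hw, vcode_U, vcode_V]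

theorem md_WW : Md gC WW := ⟨rl_gC, card_WW, ev gC [5, 8, 7] • eW, by
  rw [← mul_smul, ← ev_cons, Ne, smul_eW]; decide +kernel⟩

theorem gC_eW {a : ℕ} (h : a ∈ [0, 1, 2, 3, 4, 8]) : gC a • eW = eW := by
  have := (smul_eW (v := [a]) (w := []) (by simp at h ⊢; omega)).2 (by revert a; decide +kernel)
  rwa [ev_singleton, ev_nil, one_smul] at this

theorem ep_mem {K : Subgroup C2} (h : ∀ a < 4, gC a ∈ K) (a : A) : ep gC a ∈ K := by
  rw [ep_eq]
  exact mul_mem (mul_mem (mul_mem (pow_mem (h 0 (by omega)) _) (pow_mem (h 1 (by omega)) _))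
    (pow_mem (h 2 (by omega)) _)) (pow_mem (h 3 (by omega)) _)

theorem dv_eW : Dv gC eW := by
  refine ⟨fun e => ?_, fun a => ⟨fun _ => ep_mem (K := stabilizer C2 eW) (fun j hj => gC_eW (by
    simp; omega)) a, fun h => absurd (by rw [X_zero, zero_dotProduct]) h⟩, gC_eW (by simp),
    gC_eW (by simp)⟩
  rw [eW, ← Submodule.Quotient.mk_zero, mk_eq, ← vcode_injective.eq_iff, ← vcode_injective.eq_iff,
    vcode_V, Submodule.coe_zero, zero_add, vcode_U, vcode_zero] at e
  omega

theorem κ_smul_iff (a : C2) {w : leechLattice} (h1 : sqNorm (w : GolayPt → ℤ) = 32)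
    (h2 : dotInt (leechU : GolayPt → ℤ) w = 16) : φ a • κ (nb 1) = κ w ↔ a • nb 1 = w := by
  rw [φ_κ, κ_eq_iff]
  refine ⟨fun h => ?_, fun h => h ▸ Cong.refl _⟩
  rcases h.short (by rw [sqNorm_smul, sqNorm_nb]; norm_num) (by omega) with e | e | e
  · exact e
  · have := dot_C2 a (nb 1)
    rw [e, AddSubgroup.coe_neg, dot_neg_right, h2, Y5.dot_U_V] at this
    omega
  · omega

/-- the unitary subgroup -/
noncomputable abbrev U0 : Subgroup C2 := stabilizer C2 (nb 1)

/-- its extension -/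
noncomputable abbrev U1 : Subgroup C2 := stabilizer C2 eW

theorem mem_U1 {a : C2} : a ∈ U1 ↔ a • nb 1 = nb 1 ∨ a • nb 1 = leechU - nb 1 := by
  rw [mem_stabilizer_iff, eW, smul_mk, mk_eq, ← κ_smul_iff a (sqNorm_nb 1) Y5.dot_U_V,
    ← κ_smul_iff a (by decide +kernel) (by decide +kernel), map_sub, sub_eq_add_neg, v2_neg, add_comm]

theorem gC_U0 {a : ℕ} (h : a ∈ [0, 1, 2, 3, 8]) : gC a ∈ U0 := by
  rw [mem_stabilizer_iff, ← κ_smul_iff _ (sqNorm_nb 1) Y5.dot_U_V, ← vcode_injective.eq_iff, ← ac_cd,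
    cd_gC (by simp at h; omega), vcode_V]
  revert a; decide +kernel

theorem U0_le : U0 ≤ U1 := fun _ h => mem_U1.2 (.inl h)

theorem index_U0 : (U0.subgroupOf U1).index = 2 := by
  have h0 : ∀ a : C2, a • (leechU - nb 1) = leechU - a • nb 1 := fun a => by
    rw [smul_sub, show a • leechU = leechU from a.2]
  have h1 : nb 1 ≠ leechU - nb 1 := fun e => absurd (congrArg Subtype.val e) (by decide +kernel)
  have h4 : gC 4 • nb 1 = leechU - nb 1 := (mem_U1.1 (gC_eW (a := 4) (by simp))).resolve_left (by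
    rw [← κ_smul_iff _ (sqNorm_nb 1) Y5.dot_U_V, ← vcode_injective.eq_iff, ← ac_cd, cd_gC (by omega),
      vcode_V]
    decide +kernel)
  refine Subgroup.index_eq_two_iff.2 ⟨⟨gC 4, gC_eW (by simp)⟩, fun b => ?_⟩
  simp only [Subgroup.mem_subgroupOf, mem_stabilizer_iff, Subgroup.coe_mul, mul_smul, h4, h0]
  rcases mem_U1.1 b.2 with e | e <;> rw [e]
  · exact .inr ⟨rfl, h1.symm⟩
  · exact .inl ⟨sub_sub_cancel _ _, h1.symm⟩

/-- the unitary subgroup in the lattice group -/
noncomputable def eqU0 : U0 ≃* ↥(stabilizer Co0 leechU ⊓ stabilizer Co0 (nb 1)) where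
  toFun a := ⟨a.1.1, a.1.2, a.2⟩
  invFun a := ⟨⟨a.1, a.2.1⟩, a.2.2⟩
  left_inv _ := rfl
  right_inv _ := rfl
  map_mul' _ _ := rfl

theorem index_U1 : U1.index = 2300 := by
  have h1 := (U0.subgroupOf U1).card_mul_index
  rw [index_U0, Nat.card_congr (Subgroup.subgroupOfEquivOfLe U0_le).toEquiv,
    Nat.card_congr eqU0.toEquiv, Y5.card_stab_UV] at h1
  have h2 := U1.card_mul_index
  rw [card_C2, ← h1] at h2
  omega

theorem cm_le (x : C1) : (cmL (cd x)).dedup.length ≤ (Set.range fun v : VV => x • v + v).ncard := by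
  rw [← List.card_toFinset, ← Set.ncard_coe_finset]
  refine (Set.ncard_le_ncard (t := vcode '' _) (fun c hc => ?_)).trans (Set.ncard_image_le)
  obtain ⟨t, -, rfl⟩ := List.mem_map.1 (List.mem_toFinset.1 hc)
  have := Nat.mod_lt (t * 2654435) (Nat.two_pow_pos 24)
  exact ⟨_, ⟨vdec 24 (t * 2654435 % 2 ^ 24), rfl⟩, by rw [vcode_add, ← ac_cd, vcode_vdec this]⟩

attribute [local irreducible] cmL

theorem rank_VV {y : C2} (h2 : y * y = 1) (h1 : y ≠ 1) :
    64 < (Set.range fun v : VV => φ y • v + v).ncard := by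
  obtain ⟨o, k, e, h⟩ : ∃ o k : C1, k * φ y * k⁻¹ = o ∧ 64 < (cmL (cd o)).dedup.length := by
    rcases cases_of_sq (x := y.1) (congrArg Subtype.val h2) with h | h | h
    · exact absurd (φ_inj (h.trans φ.map_one.symm)) h1
    · obtain ⟨hm, e⟩ := Co1T.okS_spec okO.1
      obtain ⟨k, hk⟩ := h.exists_conj (Oct.ca ⟨⟨_, hm⟩,
        (by decide +kernel : (Golay.E.setOf 5279).card = 8), rfl⟩)
      exact ⟨_, k, hk, by rw [e]; exact okO.2.2.1⟩
    · obtain ⟨hm, e⟩ := Co1T.okS_spec okO.2.1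
      obtain ⟨k, hk⟩ := h.exists_conj (Dod.cc ⟨⟨_, hm⟩,
        (by decide +kernel : (Golay.E.setOf 28637).card = 12), rfl⟩)
      exact ⟨_, k, hk, by rw [e]; exact okO.2.2.2⟩
  refine h.trans_le ((cm_le o).trans ((Set.ncard_le_ncard (t := (k • ·) '' _) ?_).trans
    Set.ncard_image_le))
  rintro _ ⟨v, rfl⟩
  exact ⟨_, ⟨k⁻¹ • v, rfl⟩, by simp only [smul_add', ← e, mul_smul, smul_inv_smul]⟩

theorem rank_WW {y : C2} (h2 : y * y = 1) (h1 : y ≠ 1) :
    16 < (Set.range fun v : WW => y • v + v).ncard := by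
  have h := (rank_VV h2 h1).trans_le ((Set.ncard_le_ncard (t := (fun p : WW × ZMod 2 × ZMod 2 =>
    p.1.out.1 + p.2.1 • κ leechU + p.2.2 • (φ y • κ (nb 3) + κ (nb 3))) ''
      (Set.range fun v : WW => y • v + v) ×ˢ Set.univ) ?_).trans Set.ncard_image_le)
  · rw [Set.ncard_prod, Set.ncard_univ, Nat.card_prod, Nat.card_zmod] at h
    omega
  rintro _ ⟨x, rfl⟩
  have hx : x + lam x • κ (nb 3) ∈ UU := by
    rw [LinearMap.mem_ker, map_add, map_smul, lam_nb7, smul_eq_mul, mul_one, v2_add_self]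
  let r : WW := y • Submodule.Quotient.mk ⟨_, hx⟩ + Submodule.Quotient.mk ⟨_, hx⟩
  have h3 : (Submodule.Quotient.mk r.out : WW) = r := r.out_eq
  have h4 : φ y • (lam x • κ (nb 3)) = lam x • φ y • κ (nb 3) := (τ0 y).map_smul _ _
  obtain ⟨δ, h5⟩ : ∃ δ : ZMod 2, r.out.1 + δ • κ leechU =
      φ y • (x + lam x • κ (nb 3)) + (x + lam x • κ (nb 3)) := by
    rcases mk_eq.1 (h3.trans (show r = _ from (congrArg (· + _) (smul_mk y _)).trans
      (Submodule.Quotient.mk_add _).symm)) with e | e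
    · exact ⟨0, by rw [zero_smul, add_zero]; exact e⟩
    · exact ⟨1, by rw [one_smul, e, v2_add_add_cancel']; rfl⟩
  refine ⟨(r, δ, lam x), ⟨⟨_, rfl⟩, trivial⟩, ?_⟩
  change r.out.1 + δ • κ leechU + lam x • (φ y • κ (nb 3) + κ (nb 3)) = φ y • x + x
  rw [h5, smul_add', h4, smul_add]
  linear_combination (norm := abel) v2_add_self (lam x • φ y • κ (nb 3)) + v2_add_self (lam x • κ (nb 3))

theorem gC_ne : gC 0 ≠ 1 := fun e => md_WW.nt.elim fun v h => h (by rw [e, one_smul])

variable {V : Type*} [AddCommGroup V] [Module (ZMod 2) V] [DistribMulAction C2 V]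
  (hV : Nat.card V = 2 ^ 22) (hf : ∀ a : C2, (∀ v : V, a • v = v) → a = 1)
  {q : QuadraticForm (ZMod 2) V} (nd : ∀ v, (∀ w, polar q v w = 0) → v = 0)
  (hq : ∀ (a : C2) (v : V), q (a • v) = q v)
include hV hf nd hq

/-- A faithful orthogonal module of degree 22 is the section of the lattice modulo two. -/
theorem co2_equiv : ∃ f : WW ≃ₗ[ZMod 2] V, (∀ (a : C2) x, f (a • x) = a • f x) ∧ Md gC V ∧
    Dv gC (f eW) := by
  have M : Md gC V := ⟨rl_gC, hV, not_forall.1 fun h => gC_ne (hf _ h)⟩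
  obtain ⟨d, D⟩ := M.exists_dv nd hq
  obtain ⟨f, f1, f2⟩ := M.exists_equiv md_WW D dv_eW
  exact ⟨f, fun a => (gen_top f2 ▸ Subgroup.mem_top a : a ∈ EqS C2 f), M, f1 ▸ D⟩

theorem co2_module (hs : IsSimpleGroup U0) :
    ∃ d : V, d ≠ 0 ∧ q d = 0 ∧ stabilizer C2 d = U1 ∧
      (∀ y : C2, y * y = 1 → y ≠ 1 → 16 < (Set.range fun v : V => y • v + v).ncard) ∧
      (∀ v : V, (∀ a ∈ U0, a • v = v) → v = 0 ∨ v = d) ∧
      ∀ K ≤ U1, IsPGroup 2 K → (∀ a ∈ U1, ∀ k ∈ K, a * k * a⁻¹ ∈ K) → K = ⊥ := by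
  obtain ⟨f, f3, M, D⟩ := co2_equiv hV hf nd hq
  generalize f1 : f eW = d at D
  have h1 : stabilizer C2 d = U1 := Subgroup.ext fun a => by
    rw [mem_stabilizer_iff, mem_stabilizer_iff, ← f1, ← f3, f.injective.eq_iff]
  have hE : ∀ a, ep gC a ∈ U0 := ep_mem fun j hj => gC_U0 (by simp; omega)
  refine ⟨d, D.ne, M.q_dv nd hq D, h1, fun y a b => ?_, fun v hv => M.fix_cases D (fun a =>
    ⟨fun _ => hv _ (hE a), fun h => absurd (by rw [X_zero, zero_dotProduct]) h⟩)
    (hv _ (gC_U0 (by simp))), fun K hK hp hn => ?_⟩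
  · refine (rank_WW a b).trans_le ((Set.ncard_image_of_injective _ f.injective).ge.trans
      (Set.ncard_le_ncard ?_ (have := M.finite; Set.toFinite _))) 
    rintro _ ⟨_, ⟨x, rfl⟩, rfl⟩
    exact ⟨f x, by simp only [map_add, f3]⟩
  have h2 : ∀ k ∈ K, k ∈ U0 → k = 1 := fun k a b => by
    have : (K.subgroupOf U0).Normal := ⟨fun n hn' u => hn u (U0_le u.2) n hn'⟩
    rcases this.eq_bot_or_eq_top with e | e
    · exact congrArg Subtype.val ((Subgroup.eq_bot_iff_forall _).1 e ⟨k, b⟩ a)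
    · have c : gC 0 ∈ K := Subgroup.subgroupOf_eq_top.1 e (gC_U0 (by simp))
      obtain ⟨n, hn⟩ := hp ⟨_, c⟩
      have c3 : gC 0 ^ 3 = 1 := by simpa [ev, pow_three] using rl_gC.eq [0, 0, 0] []
      exact absurd ((pow_eq_one_iff_of_coprime (Nat.Coprime.pow_left n (by norm_num))).1
        ⟨congrArg Subtype.val hn, c3⟩) gC_ne
  have h3 := Subgroup.normal_of_index_eq_two index_U0
  refine (Subgroup.eq_bot_iff_forall _).2 fun y hy => hf y (M.triv_of_comm nd hq D
    (h2 _ (mul_mem hy hy) (Subgroup.mul_self_mem_of_index_two index_U0 ⟨y, hK hy⟩)) (fun a => ?_)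
    (h1.ge (hK hy)))
  have := h2 _ (mul_mem (hn _ (U0_le (hE a)) y hy) (inv_mem hy)) (by
    have c : y * (ep gC a)⁻¹ * y⁻¹ ∈ U0 :=
      h3.conj_mem ⟨_, U0_le (inv_mem (hE a))⟩ (inv_mem (hE a)) ⟨y, hK hy⟩
    simpa only [mul_assoc] using mul_mem (hE a) c)
  rwa [mul_inv_eq_one, mul_inv_eq_iff_eq_mul] at this

end CL.BU
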