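import Mathlib
import Cfsg.Agent.SPOR.CE
import Cfsg.Agent.SPOR.LE.Lin

/-!
Modules of degree 22 over `F₂` of the second Conway group: the weight spaces of the subgroup `3^4`.
-/

set_option autoImplicit false
set_option maxRecDepth 100000
set_option linter.unusedSectionVars false

namespace CL.BU

open Finset Matrix CL.LE
open CL.CE (ev ev_nil ev_cons ev_append ev_singleton ev_mem)

/-- exponent vectors -/
abbrev A : Type := Fin 4 → ZMod 3

/-- ternary digits -/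
def vc (n : ℕ) : A := fun j => ((n / 3 ^ j.val : ℕ) : ZMod 3)

/-- the characters up to sign: trivial, ten singular ones, two orbits of length fifteen -/
def X (i : Fin 41) : A := vc ([0, 27, 13, 58, 28, 52, 70, 64, 76, 34, 46, 9, 4, 22, 57, 73, 61, 30,
  16, 55, 40, 3, 63, 36, 79, 10, 12, 21, 37, 25, 66, 48, 39, 49, 31, 19, 1, 7, 75, 43, 67].getD i 0)

/-- matrices of the normalising elements -/
def MM (k : ℕ) : Matrix (Fin 4) (Fin 4) (ZMod 3) := Matrix.of fun i =>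
  vc ([77, 10, 8, 26, 21, 61, 22, 35, 55, 75, 51, 54, 7, 6, 9, 27, 2, 6, 18, 54].getD (4 * k + i) 0)

/-- the normalising elements -/
def NW (k : ℕ) : List ℕ := [[5], [6], [7], [8, 8], [4]].getD k []

/-- the word of an exponent vector -/
def wd (a : A) : List ℕ := List.replicate (a 0).val 0 ++ List.replicate (a 1).val 1 ++
  List.replicate (a 2).val 2 ++ List.replicate (a 3).val 3

/-- relations -/
def RL : List (List ℕ × List ℕ) := [([0, 0, 0], []), ([1, 1, 1], []), ([2, 2, 2], []), ([3, 3, 3], []),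
  ([0, 1], [1, 0]), ([0, 2], [2, 0]), ([0, 3], [3, 0]), ([1, 2], [2, 1]), ([1, 3], [3, 1]),
  ([2, 3], [3, 2]), ([4, 4], []), ([5, 5, 5, 5, 5], []), ([6, 6, 6, 6, 6], []), ([4, 5], [5, 4]),
  ([4, 6], [6, 4]), ([4, 7], [7, 4]), ([4, 4], [4, 4]), ([4, 8], [8, 8, 8, 4]), ([4, 8, 8], [8, 8, 4]),
  ([4, 3], [3, 3, 4]), ([8, 8, 7], [7, 4, 6, 5, 6, 5, 5, 5, 8, 8]),
  ([7, 7], [5, 5, 6, 6, 5, 6, 5, 6, 5]), ([7, 8, 7], [8, 7, 8, 1, 3, 3, 8, 6, 6, 5, 8, 3, 3, 6, 6, 5]),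
  ([8, 0], [0, 8]), ([7, 0], [0, 7]), ([8, 8, 8, 8], []), ([3, 8, 8], [8, 8, 3]),
  ([8, 3, 8, 3, 3], [3, 8, 3, 3, 8, 8, 8]), ([3, 8, 3, 3, 3, 8, 3, 3], [8, 8]),
  ([3, 3, 8, 3], [8, 3, 8, 3, 3, 8, 8]), ([8, 3, 8], [3, 3, 8, 8, 8, 3, 3]),
  ([8, 1], [5, 5, 6, 5, 3, 6, 5, 5, 6, 5, 8]), ([8, 2], [2, 8]),
  ([7, 8, 3, 7, 8, 3, 7, 8, 3, 7, 8, 3, 7, 8, 3], []), ([8, 7, 7, 7, 7, 8, 8, 8], []),
  ([7, 8, 3, 7, 8, 3, 8, 7, 7, 8, 3, 7, 7, 7, 8, 8, 8, 8, 7, 7, 8, 3, 7, 7, 7, 8, 8, 8,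
    7, 8, 3, 7, 8, 3, 8, 7, 7, 8, 3, 7, 7, 7, 8, 8, 8, 8, 7, 7, 8, 3, 7, 7, 7, 8, 8, 8], [3, 3]),
  ([7, 3], [0, 0, 1, 1, 3, 3, 7])]

/-- letters `0..3` generate `3^4`, `4` inverts it, `5, 6, 7` normalise it, `8` has order four -/
structure Rl {Γ : Type*} [Group Γ] (g : ℕ → Γ) : Prop where
  rl : ∀ p ∈ RL, ev g p.1 = ev g p.2
  rel : ∀ k < 5, ∀ a, ev g (wd a ++ NW k) = ev g (NW k ++ wd (MM k *ᵥ a))

/-- the action on the characters -/
def pm (k : ℕ) (i : Fin 41) : Fin 41 := Fin.ofNat 41 (([[0, 2, 4, 6, 7, 3, 8, 9, 10, 1, 5, 12, 14, 16,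
  18, 19, 20, 21, 22, 17, 24, 25, 11, 13, 23, 15, 27, 29, 31, 33, 35, 36, 37, 38, 28, 32, 39, 40, 26, 34,
  30], [0, 3, 5, 6, 7, 1, 2, 10, 4, 8, 9, 13, 15, 17, 19, 14, 11, 21, 23, 24, 25, 16, 20, 22, 12, 18, 28,
  30, 32, 34, 31, 35, 29, 37, 26, 36, 27, 40, 39, 33, 38]].getD k []).getD i 0)

/-- orbit representatives -/
def rp (i : Fin 41) : Fin 41 := if i = 0 then 0 else if i ≤ 10 then 1 else if i ≤ 25 then 11 else 26

def PW (i : Fin 41) : List ℕ := [[], [], [0], [1], [0, 0], [1, 0], [0, 1], [0, 0, 0], [0, 0, 1],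
  [0, 0, 0, 0], [1, 0, 0, 0], [], [0], [1], [0, 0], [1, 0], [0, 1], [1, 1], [0, 0, 0], [1, 0, 0],
  [0, 0, 1], [0, 1, 1], [0, 0, 0, 0], [1, 0, 0, 0], [1, 1, 0, 0], [1, 0, 0, 1], [], [0], [1], [0, 0],
  [1, 0], [0, 1], [1, 1], [0, 0, 0], [1, 0, 0], [0, 1, 0], [0, 0, 1], [0, 1, 1], [0, 0, 0, 0],
  [0, 0, 0, 1], [0, 0, 1, 1]].getD i []

def PB (i : Fin 41) : List ℕ := [[], [], [1, 1], [1, 1, 1, 0], [0, 0, 0], [1], [1, 1, 1], [0, 0],
  [1, 0, 0], [0], [1, 0], [], [0, 0, 0, 0], [1, 0], [0, 0, 0], [0, 0, 0, 1], [1], [1, 1, 0], [0, 0],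
  [1, 1, 0, 0], [0, 1, 0, 0], [1, 1], [0], [0, 1], [0, 1, 0], [0, 0, 1], [], [1, 1, 0], [1, 1, 1, 1],
  [1, 1], [1, 1, 1, 0, 0], [1, 0, 0, 0], [1, 1, 1], [0, 0], [1], [1, 1, 1, 0], [1, 0, 0], [0, 1, 0],
  [0], [1, 0], [0, 1]].getD i []

/-- coefficients of the projections -/
def cf (χ a : A) : ZMod 2 := if χ = 0 then 1 else if χ ⬝ᵥ a = 0 then 0 else 1

theorem cf_sum : ∀ a : A, ∑ i, cf (X i) a = if a = 0 then 1 else 0 := by
  simp only [cf, dotProduct, Fin.sum_univ_four]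
  decide +kernel

theorem X_sep : ∀ i k : Fin 41, i ≠ k →
    ∃ n ∈ [1, 3, 9, 27, 4, 7, 10, 19, 28, 55, 12, 21, 30, 57, 36, 63],
      X i ⬝ᵥ vc n = 0 ∧ X k ⬝ᵥ vc n ≠ 0 ∨ X k ⬝ᵥ vc n = 0 ∧ X i ⬝ᵥ vc n ≠ 0 := by
  simp only [dotProduct, Fin.sum_univ_four]
  decide +kernel

theorem pm_spec : ∀ k < 2, ∀ i, X i ᵥ* MM k = X (pm k i) ∨ X i ᵥ* MM k = -X (pm k i) := by
  decide +kernel

theorem path_spec : ∀ i, (∀ a ∈ PW i, a < 2) ∧ (∀ a ∈ PB i, a < 2) ∧
    (PW i).foldr pm (rp i) = i ∧ (PB i).foldr pm i = rp i := by decide +kernel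

theorem X_ne : ∀ i : Fin 41, i ≠ 0 → ∃ n < 81, X i ⬝ᵥ vc n ≠ 0 := by decide +kernel

theorem prod_rp (m : Fin 41 → ℕ) : ∏ i, m (rp i) = m 0 * (m 1 ^ 10 * (m 11 ^ 15 * m 26 ^ 15)) := by
  rw [prod_comp, show univ.image rp = {0, 1, 11, 26} by decide +kernel, prod_insert (by decide),
    prod_insert (by decide), prod_insert (by decide), prod_singleton,
    show #{a | rp a = 0} = 1 by decide +kernel, show #{a | rp a = 1} = 10 by decide +kernel,
    show #{a | rp a = 11} = 15 by decide +kernel, show #{a | rp a = 26} = 15 by decide +kernel,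
    pow_one]

theorem arith {m0 m1 m2 m3 : ℕ} (h : 2 ^ 22 = m0 * (m1 ^ 10 * (m2 ^ 15 * m3 ^ 15)))
    (a1 : m1 = 1 ∨ 4 ≤ m1) (a2 : m2 = 1 ∨ 4 ≤ m2) (a3 : m3 = 1 ∨ 4 ≤ m3)
    (hn : m1 = 1 → m2 = 1 → m3 = 1 → False) : m0 = 4 ∧ m1 = 4 ∧ m2 = 1 ∧ m3 = 1 := by
  have k : ∀ m, m ^ 15 ∣ 2 ^ 22 → ¬ 4 ≤ m := fun m h1 h2 =>
    absurd ((Nat.pow_le_pow_left h2 15).trans (Nat.le_of_dvd (by norm_num) h1)) (by norm_num)
  obtain rfl := a2.resolve_right (k _ ⟨m0 * m1 ^ 10 * m3 ^ 15, by rw [h]; ring⟩)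
  obtain rfl := a3.resolve_right (k _ ⟨m0 * m1 ^ 10, by rw [h]; ring⟩)
  have h1 := a1.resolve_left fun e => hn e rfl rfl
  have h2 : ¬ 5 ≤ m1 := fun e => absurd ((Nat.pow_le_pow_left e 10).trans
    (Nat.le_of_dvd (n := 2 ^ 22) (by norm_num) ⟨m0, by rw [h]; ring⟩)) (by norm_num)
  obtain rfl : m1 = 4 := by omega
  omega

section

variable {Γ : Type*} [Group Γ] {g : ℕ → Γ} {V : Type*} [AddCommGroup V] [Module (ZMod 2) V]
  [DistribMulAction Γ V]

theorem smul_c (γ : Γ) (c : ZMod 2) (v : V) : γ • c • v = c • γ • v := by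
  rcases z2_cases' c with rfl | rfl <;> simp

theorem eq_zero_of_smul {γ : Γ} {v : V} (h : γ • v = 0) : v = 0 := (smul_eq_zero_iff_eq γ).1 h

theorem four_cases [Finite V] {H : AddSubgroup V} {a b : V} (ha : a ∈ H) (hb : b ∈ H) (a0 : a ≠ 0)
    (b0 : b ≠ 0) (ab : a ≠ b) : 4 ≤ Nat.card H ∧
      (Nat.card H = 4 → ∀ u ∈ H, u = 0 ∨ u = a ∨ u = b ∨ u = a + b) := by
  have h1 : ({0, a, b, a + b} : Set V).ncard = 4 := by
    rw [Set.ncard_insert_of_notMem (by simp [a0.symm, b0.symm, eq_comm (a := (0 : V)), v2_add_eq_zero, ab]),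
      Set.ncard_insert_of_notMem (by simp [ab, b0]), Set.ncard_pair (by simp [a0])]
  have h2 : ({0, a, b, a + b} : Set V) ⊆ H := by
    rintro x (rfl | rfl | rfl | rfl)
    exacts [zero_mem _, ha, hb, add_mem ha hb]
  refine ⟨h1 ▸ Set.ncard_le_ncard h2, fun h u hu => ?_⟩
  have := Set.eq_of_subset_of_ncard_le h2 (h1 ▸ h.le)
  exact (this ▸ hu : u ∈ ({0, a, b, a + b} : Set V))

/-- the fixed points -/
def Fx (V : Type*) [AddCommGroup V] [DistribMulAction Γ V] (c : Γ) : AddSubgroup V where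
  carrier := {v | c • v = v}
  zero_mem' := smul_zero c
  add_mem' := fun {a b} ha hb => (smul_add c a b).trans (congrArg₂ _ ha hb)
  neg_mem' := fun {a} ha => (smul_neg c a).trans (congrArg _ ha)

theorem fix5 [Finite V] {H : AddSubgroup V} {c : Γ} (hc : ∀ v : V, c • c • c • c • c • v = v)
    (hH : ∀ v ∈ H, c • v ∈ H) : Nat.card H ≡ Nat.card ↥(H ⊓ Fx V c) [MOD 5] ∧
      Nat.card ↥(H ⊓ Fx V c) ∣ Nat.card H ∧
      (Nat.card ↥(H ⊓ Fx V c) = Nat.card H → ∀ v ∈ H, c • v = v) := by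
  classical
  have : Fact (Nat.Prime 5) := ⟨by norm_num⟩
  have := Fintype.ofFinite H
  let f : Function.End H := fun v => ⟨c • v.1, hH _ v.2⟩
  refine ⟨?_, AddSubgroup.card_dvd_of_le inf_le_left, fun h v hv =>
    ((AddSubgroup.eq_of_le_of_card_ge inf_le_left h.ge).ge hv).2⟩
  have h1 := Equiv.Perm.card_fixedPoints_modEq (f := f) (p := 5) (n := 1) (by
    funext v
    exact Subtype.ext (hc v))
  rw [← Nat.card_eq_fintype_card, ← Nat.card_eq_fintype_card] at h1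
  rwa [Nat.card_congr (⟨fun v => ⟨⟨v.1, v.2.1⟩, Subtype.ext v.2.2⟩,
    fun v => ⟨v.1.1, v.1.2, congrArg Subtype.val v.2⟩, fun _ => rfl, fun _ => rfl⟩ :
      ↥(H ⊓ Fx V c) ≃ f.fixedPoints)]

theorem fix2 {H : AddSubgroup V} {c : Γ} (hH : ∀ v ∈ H, c • v ∈ H) (hc : ∀ v ∈ H, c • c • v = v)
    (h : ∃ v ∈ H, v ≠ 0) : ∃ v ∈ H ⊓ Fx V c, v ≠ 0 := by
  obtain ⟨v, hv, h0⟩ := h
  by_cases e : c • v = v
  · exact ⟨v, ⟨hv, e⟩, h0⟩
  · exact ⟨v + c • v, ⟨add_mem hv (hH v hv), by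
      change c • _ = _
      rw [smul_add, hc v hv, add_comm]⟩, fun e' => e (v2_add_eq_zero.1 e').symm⟩

variable (g) in
/-- the elements of `3^4` -/
def ep (a : A) : Γ := ev g (wd a)

theorem ev_rep (n a : ℕ) : ev g (List.replicate n a) = g a ^ n := by
  induction n with
  | zero => simp [ev_nil]
  | succ n ih => rw [List.replicate_succ, ev_cons, ih, pow_succ']

theorem ep_eq (a : A) :
    ep g a = g 0 ^ (a 0).val * g 1 ^ (a 1).val * g 2 ^ (a 2).val * g 3 ^ (a 3).val := by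
  simp only [ep, wd, ev_append, ev_rep]

theorem ep_zero : ep g 0 = 1 := by simp [ep_eq]

theorem ep_one : ep g (vc 1) = g 0 := ev_singleton g 0

theorem ep_27 : ep g (vc 27) = g 3 := ev_singleton g 3

variable (g V) in
/-- the weight space of a character -/
def Eig (χ : A) : AddSubgroup V where
  carrier := {v | ∀ a, (χ ⬝ᵥ a = 0 → ep g a • v = v) ∧
    (χ ⬝ᵥ a ≠ 0 → v + ep g a • v + ep g a • ep g a • v = 0)}
  zero_mem' := by simp
  add_mem' := fun {u v} hu hv a => ⟨fun h => by rw [smul_add, (hu a).1 h, (hv a).1 h], fun h => by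
    rw [smul_add, smul_add]; linear_combination (norm := abel) (hu a).2 h + (hv a).2 h⟩
  neg_mem' := fun {u} hu => by rwa [v2_neg]

theorem Eig_neg (χ : A) : Eig g V (-χ) = Eig g V χ := by
  ext v
  exact forall_congr' fun a => by simp

theorem zero_of_both {c : Γ} {v : V} (h1 : c • v = v) (h2 : v + c • v + c • c • v = 0) : v = 0 := by
  rwa [h1, h1, v2_add_self, zero_add] at h2

theorem eig_conj {n : Γ} {M : Matrix (Fin 4) (Fin 4) (ZMod 3)}
    (h : ∀ a, ep g a * n = n * ep g (M *ᵥ a)) {χ : A} {v : V} (hv : v ∈ Eig g V χ) :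
    n • v ∈ Eig g V (χ ᵥ* M) := fun a => by
  have e : ∀ u : V, ep g a • n • u = n • ep g (M *ᵥ a) • u := fun u => by
    rw [← mul_smul, h, mul_smul]
  rw [← dotProduct_mulVec, e, e, ← smul_add, ← smul_add]
  exact ⟨fun h => by rw [(hv _).1 h], fun h => by rw [(hv _).2 h, smul_zero]⟩

variable (g) in
/-- an element of the group algebra -/
def T (c : A → ZMod 2) : V →+ V where
  toFun v := ∑ a, c a • ep g a • v
  map_zero' := by simp
  map_add' u v := by simp [smul_add, sum_add_distrib]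

theorem T_apply (c : A → ZMod 2) (v : V) : T g c v = ∑ a, c a • ep g a • v := rfl

variable (g) in
/-- the projections -/
def pj (i : Fin 41) : V →+ V := T g (cf (X i))

theorem sum_pj (v : V) : ∑ i, pj g i v = v := by
  simp only [pj, T_apply]
  rw [sum_comm]
  simp only [← sum_smul, cf_sum, ite_smul, one_smul, zero_smul, sum_ite_eq', mem_univ, if_true,
    ep_zero]

namespace Rl

variable (R : Rl g)
include R

theorem eq (v w : List ℕ) (h : (v, w) ∈ RL := by decide) : ev g v = ev g w := R.rl _ h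

theorem sm (v w : List ℕ) (x : V) (h : (v, w) ∈ RL := by decide) :
    v.foldr (fun a y => g a • y) x = w.foldr (fun a y => g a • y) x := by
  have e : ∀ u : List ℕ, u.foldr (fun a y => g a • y) x = ev g u • x := fun u => by
    induction u with
    | nil => simp [ev_nil]
    | cons a u ih => rw [List.foldr_cons, ih, ev_cons, mul_smul]
  rw [e, e, R.rl _ h]

theorem ep_add (a b : A) : ep g (a + b) = ep g a * ep g b := by
  have p : ∀ j < 4, ∀ x y : ZMod 3, g j ^ (x + y).val = g j ^ x.val * g j ^ y.val := fun j hj x y => by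
    rw [ZMod.val_add, ← pow_eq_pow_mod _ (by
      simpa [ev, pow_three] using R.eq [j, j, j] [] (by interval_cases j <;> decide)), pow_add]
  have c : ∀ i j, i < j → j < 4 → ∀ m n, Commute (g j ^ m) (g i ^ n) := fun i j h hj m n =>
    Commute.pow_pow (by
      simpa [ev, Commute, SemiconjBy] using (R.eq [i, j] [j, i] (by
        interval_cases j <;> interval_cases i <;> decide)).symm) m n
  simp only [ep_eq, Pi.add_apply, p, Nat.reduceLT]
  rw [Commute.mul_mul_mul_comm (((c 0 3 (by omega) (by omega) _ _).mul_right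
      (c 1 3 (by omega) (by omega) _ _)).mul_right (c 2 3 (by omega) (by omega) _ _)),
    Commute.mul_mul_mul_comm ((c 0 2 (by omega) (by omega) _ _).mul_right
      (c 1 2 (by omega) (by omega) _ _)), Commute.mul_mul_mul_comm (c 0 1 (by omega) (by omega) _ _)]

theorem ep_smul (a b : A) (v : V) : ep g a • ep g b • v = ep g (a + b) • v := by
  rw [R.ep_add, mul_smul]

theorem ep_comm (a b : A) (v : V) : ep g a • ep g b • v = ep g b • ep g a • v := by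
  rw [R.ep_smul, R.ep_smul, add_comm]

theorem rel' {k : ℕ} (hk : k < 5) (a : A) :
    ep g a * ev g (NW k) = ev g (NW k) * ep g (MM k *ᵥ a) := by
  have := R.rel k hk a
  rwa [ev_append, ev_append] at this

theorem eig_ep {χ : A} {v : V} (hv : v ∈ Eig g V χ) (b : A) : ep g b • v ∈ Eig g V χ := by
  have := eig_conj (M := 1) (n := ep g b) (fun a => by
    rw [one_mulVec, ← R.ep_add, ← R.ep_add, add_comm]) hv
  rwa [vecMul_one] at this

theorem eig_eq {χ : A} {v : V} (hv : v ∈ Eig g V χ) {a b : A} (h : χ ⬝ᵥ a = χ ⬝ᵥ b) :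
    ep g a • v = ep g b • v := by
  rw [← (hv (a - b)).1 (by rw [dotProduct_sub, h, sub_self]), R.ep_smul b, add_sub_cancel,
    (hv (a - b)).1 (by rw [dotProduct_sub, h, sub_self])]

theorem ep_T (b : A) (c : A → ZMod 2) (v : V) : ep g b • T g c v = T g (fun a => c (a - b)) v := by
  rw [T_apply, T_apply, smul_sum]
  exact Fintype.sum_equiv (Equiv.addLeft b) _ _ fun a => by simp [smul_c, R.ep_smul]

theorem T_ep (b : A) (c : A → ZMod 2) (v : V) : T g c (ep g b • v) = ep g b • T g c v := by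
  rw [T_apply, T_apply, smul_sum]
  exact sum_congr rfl fun a _ => by rw [smul_c, R.ep_comm]

theorem pj_mem (i : Fin 41) (v : V) : pj g i v ∈ Eig g V (X i) := fun b => by
  rw [pj, R.ep_T, R.ep_T]
  refine ⟨fun h => congrArg (T g · v) (funext fun a => by simp [cf, h]), fun h => ?_⟩
  have h0 : X i ≠ 0 := fun e => h (by rw [e, zero_dotProduct])
  simp only [T_apply, ← sum_add_distrib, ← add_smul, cf, if_neg h0, dotProduct_sub]
  exact sum_eq_zero fun a _ => by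
    rw [(by decide : ∀ x y : ZMod 3, y ≠ 0 → ((if x = 0 then 0 else 1) + (if x - y = 0 then 0 else 1) +
      (if x - y - y = 0 then 0 else 1) : ZMod 2) = 0) _ _ h, zero_smul]

theorem pj_mem' (i : Fin 41) {χ : A} {v : V} (hv : v ∈ Eig g V χ) : pj g i v ∈ Eig g V χ :=
  sum_mem (t := univ) (f := fun a => cf (X i) a • ep g a • v) fun a _ => by
    rcases v2_smul_cases (cf (X i) a) (ep g a • v) with e | e <;> rw [e]
    exacts [zero_mem _, R.eig_ep hv a]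

theorem pj_of_fix {i : Fin 41} {a : A} {v : V} (h : ep g a • v = v) (ha : X i ⬝ᵥ a ≠ 0) :
    pj g i v = 0 :=
  zero_of_both (by rw [pj, ← R.T_ep, h]) ((R.pj_mem i v a).2 ha)

theorem pj_of_nz {i : Fin 41} {a : A} {v : V} (h : v + ep g a • v + ep g a • ep g a • v = 0)
    (ha : X i ⬝ᵥ a = 0) : pj g i v = 0 :=
  zero_of_both ((R.pj_mem i v a).1 ha) (by
    rw [pj, ← R.T_ep, ← R.T_ep, ← map_add, ← map_add, h, map_zero])

theorem pj_ne {i k : Fin 41} (h : i ≠ k) {v : V} (hv : v ∈ Eig g V (X k)) : pj g i v = 0 := by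
  obtain ⟨n, -, ⟨h1, h2⟩ | ⟨h1, h2⟩⟩ := X_sep i k h
  exacts [R.pj_of_nz ((hv _).2 h2) h1, R.pj_of_fix ((hv _).1 h1) h2]

theorem pj_self {k : Fin 41} {v : V} (hv : v ∈ Eig g V (X k)) : pj g k v = v :=
  (sum_eq_single k (fun _ _ h => R.pj_ne h hv) (by simp)).symm.trans (sum_pj v)

theorem card_eq : Nat.card V = ∏ i, Nat.card (Eig g V (X i)) := by
  rw [← Nat.card_pi]
  exact Nat.card_congr ⟨fun v i => ⟨pj g i v, R.pj_mem i v⟩, fun u => ∑ i, (u i).1, sum_pj, fun u =>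
    funext fun k => Subtype.ext (by
      change pj g k _ = _
      rw [map_sum, sum_eq_single k (fun i _ h => R.pj_ne h.symm (u i).2) (by simp),
        R.pj_self (u k).2])⟩

variable [Finite V]

theorem card_path {w : List ℕ} (hw : ∀ a ∈ w, a < 2) (i : Fin 41) :
    Nat.card (Eig g V (X i)) ≤ Nat.card (Eig g V (X (w.foldr pm i))) := by
  induction w with
  | nil => exact le_rfl
  | cons k w ih =>
    have hk := hw k List.mem_cons_self
    refine (ih fun a ha => hw a (List.mem_cons_of_mem _ ha)).trans ?_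
    rw [List.foldr_cons]
    generalize w.foldr pm i = j
    have e : Eig g V (X (pm k j)) = Eig g V (X j ᵥ* MM k) := by
      rcases pm_spec k hk j with e | e <;> rw [e]
      rw [Eig_neg]
    rw [e]
    exact Nat.card_le_card_of_injective
      (fun v => ⟨ev g (NW k) • v.1, eig_conj (R.rel' (by omega)) v.2⟩)
      fun u v h => Subtype.ext (MulAction.injective _ (congrArg Subtype.val h))

theorem eig_four {χ a : A} {v : V} (hv : v ∈ Eig g V χ) (h0 : v ≠ 0) (ha : χ ⬝ᵥ a ≠ 0) :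
    4 ≤ Nat.card (Eig g V χ) ∧ (Nat.card (Eig g V χ) = 4 → ∀ u ∈ Eig g V χ,
      u = 0 ∨ u = v ∨ u = ep g a • v ∨ u = v + ep g a • v) :=
  four_cases hv (R.eig_ep hv a) h0 (fun e => h0 (eq_zero_of_smul e))
    fun e => h0 (zero_of_both e.symm ((hv a).2 ha))

theorem cards (hV : Nat.card V = 2 ^ 22) (h : ∃ v : V, g 0 • v ≠ v) :
    (∀ i ≤ 10, Nat.card (Eig g V (X i)) = 4) ∧ ∀ i, 10 < i → Eig g V (X i) = ⊥ := by
  have h1 : ∀ i, Nat.card (Eig g V (X i)) = Nat.card (Eig g V (X (rp i))) := fun i => by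
    obtain ⟨a, b, c, d⟩ := path_spec i
    exact le_antisymm (d ▸ R.card_path b i) ((R.card_path a (rp i)).trans (by rw [c]))
  have h2 := R.card_eq (V := V)
  rw [prod_congr rfl fun i _ => h1 i, prod_rp fun i => Nat.card (Eig g V (X i)), hV] at h2
  have h3 : ∀ i, i ≠ 0 → Nat.card (Eig g V (X i)) = 1 ∨ 4 ≤ Nat.card (Eig g V (X i)) := fun i hi => by
    refine or_iff_not_imp_left.2 fun e => ?_
    obtain ⟨v, hv, h0⟩ := (Eig g V (X i)).bot_or_exists_ne_zero.resolve_left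
      fun e' => e (AddSubgroup.card_eq_one.2 e')
    obtain ⟨n, -, hn⟩ := X_ne i hi
    exact (R.eig_four hv h0 hn).1
  have h4 : ¬ ∀ i, i ≠ 0 → Nat.card (Eig g V (X i)) = 1 := fun e => by
    obtain ⟨v, hv⟩ := h
    rw [← sum_pj (g := g) v, sum_eq_single 0 (fun i _ hi => (AddSubgroup.eq_bot_iff_forall _).1
      (AddSubgroup.card_eq_one.1 (e i hi)) _ (R.pj_mem i v)) (by simp), ← ep_one (g := g)] at hv
    exact hv ((R.pj_mem 0 v _).1 (by decide))
  have h5 : ∀ i, i ≤ 10 ∧ (rp i = 0 ∧ i = 0 ∨ rp i = 1) ∨ (rp i = 11 ∨ rp i = 26) ∧ ¬ i ≤ 10 := by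
    decide
  obtain ⟨b0, b1, b2, b3⟩ := arith h2 (h3 1 (by decide)) (h3 11 (by decide)) (h3 26 (by decide))
    fun a b c => h4 fun i hi => by
      rw [h1]
      rcases h5 i with ⟨-, ⟨-, e⟩ | e⟩ | ⟨e | e, -⟩
      exacts [absurd e hi, e ▸ a, e ▸ b, e ▸ c]
  refine ⟨fun i hi => ?_, fun i hi => AddSubgroup.card_eq_one.1 ?_⟩ <;> rw [h1] <;>
    rcases h5 i with ⟨a, ⟨e, -⟩ | e⟩ | ⟨e | e, a⟩
  exacts [e ▸ b0, e ▸ b1, absurd hi a, absurd hi a, absurd hi a.not_gt, absurd hi a.not_gt,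
    e ▸ b2, e ▸ b3]

end Rl

end

end CL.BU
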