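import Cfsg.Agent.SPOR.BU.Eig

/-!
Modules of degree 22 over `F₂` of the second Conway group: frames, the five distinguished vectors,
uniqueness.
-/

set_option autoImplicit false
set_option maxRecDepth 100000
set_option linter.unusedSectionVars false

namespace CL.BU

open Finset Matrix CL.LE QuadraticMap
open CL.CE (ev ev_nil ev_cons ev_append ev_singleton ev_mem)

/-- the singular characters -/
def jx (j : Fin 10) : Fin 41 := ⟨j + 1, by omega⟩

/-- an element outside the kernel -/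
def HH (j : Fin 10) : A := if j = 0 then vc 27 else vc 1

/-- the action on the singular characters -/
def pk (k : ℕ) (j : Fin 10) : Fin 10 := Fin.ofNat 10 (([[1, 3, 5, 6, 2, 7, 8, 9, 0, 4],
  [2, 4, 5, 6, 0, 1, 9, 3, 7, 8], [0, 6, 7, 3, 9, 2, 4, 8, 5, 1], [0, 1, 2, 8, 9, 6, 5, 7, 3, 4],
  [0, 1, 2, 3, 4, 5, 6, 7, 8, 9]].getD k []).getD j 0)

theorem HH_spec : ∀ j, X (jx j) ⬝ᵥ HH j ≠ 0 ∧ jx j ≤ 10 ∧ pk 4 j = j := by decide +kernel

theorem pk_spec : ∀ k < 5, ∀ j, X (jx j) ᵥ* MM k = X (jx (pk k j)) ∨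
    X (jx j) ᵥ* MM k = -X (jx (pk k j)) := by decide +kernel

theorem MM_surj : ∀ k < 5, ∀ m ∈ [1, 27], ∃ n < 81, MM k *ᵥ vc n = vc m := by decide +kernel

theorem MM_four : ∀ j, MM 4 *ᵥ HH j = HH j + HH j := by decide +kernel

theorem idx_cases : ∀ i : Fin 41, i = 0 ∨ 10 < i ∨ ∃ j, i = jx j := by decide +kernel

theorem K_spec : ∀ j ≠ 0, ∀ i ≠ jx j, 10 < i ∨ X i ⬝ᵥ vc 1 = 0 ∨
    ∃ n < 27, X (jx j) ⬝ᵥ vc n = 0 ∧ X i ⬝ᵥ vc n ≠ 0 := by decide +kernel

theorem Y_spec : ∀ i, i ≠ 0 ∧ i ≠ 1 → 10 < i ∨ X i ⬝ᵥ vc 1 ≠ 0 := by decide +kernel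

theorem X_zero : X 0 = 0 := by decide

section

variable {Γ : Type*} [Group Γ] {g : ℕ → Γ} {V : Type*} [AddCommGroup V] [Module (ZMod 2) V]
  [DistribMulAction Γ V]

theorem ep_pow {j : ℕ} (hj : j < 4) : ep g (vc (3 ^ j)) = g j := by
  interval_cases j <;> exact ev_singleton g _

theorem mem_Fx {c : Γ} {v : V} : v ∈ Fx V c ↔ c • v = v := Iff.rfl

theorem fix0 {v : V} (hv : v ∈ Eig g V (X 0)) (a : A) : ep g a • v = v :=
  (hv a).1 (by rw [X_zero, zero_dotProduct])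

theorem fix0' {v : V} (hv : v ∈ Eig g V (X 0)) {j : ℕ} (hj : j < 4) : g j • v = v :=
  ep_pow (g := g) hj ▸ fix0 hv _

theorem fix1 {v : V} (hv : v ∈ Eig g V (X 1)) {j : ℕ} (hj : j < 3) : g j • v = v :=
  ep_pow (g := g) (j := j) (by omega) ▸ (hv _).1 (by interval_cases j <;> decide)

theorem nz1 {v : V} (hv : v ∈ Eig g V (X 1)) : v + g 3 • v + g 3 • g 3 • v = 0 :=
  ep_27 (g := g) ▸ (hv _).2 (by decide)

variable (g V) in
/-- a faithful module of degree 22 -/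
structure Md : Prop extends Rl g where
  card : Nat.card V = 2 ^ 22
  nt : ∃ v : V, g 0 • v ≠ v

variable (g) in
/-- the frame -/
structure Fm (v : Fin 10 → V) : Prop where
  ne : ∀ j, v j ≠ 0
  eig : ∀ j, v j ∈ Eig g V (X (jx j))
  fix : ∀ j, g 4 • v j = v j

variable (g) in
/-- the distinguished vector -/
structure Dv (d : V) : Prop where
  ne : d ≠ 0
  eig : d ∈ Eig g V (X 0)
  i : g 4 • d = d
  r : g 8 • d = d

variable (g) in
/-- the basis -/
def fam (v : Fin 10 → V) (d : V) : Option (Fin 10) × Bool → V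
  | (some j, false) => v j
  | (some j, true) => ep g (HH j) • v j
  | (none, false) => d
  | (none, true) => g 7 • d

theorem Rl.eig_NW (R : Rl g) {k : ℕ} (hk : k < 5) {j : Fin 10} {v : V} (hv : v ∈ Eig g V (X (jx j))) :
    ev g (NW k) • v ∈ Eig g V (X (jx (pk k j))) := by
  have := eig_conj (R.rel' hk) hv
  rcases pk_spec k hk j with e | e <;> rw [e] at this
  exacts [this, Eig_neg (g := g) (V := V) _ ▸ this]

theorem Rl.eig0_NW (R : Rl g) {k : ℕ} (hk : k < 5) {v : V} (hv : v ∈ Eig g V (X 0)) :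
    ev g (NW k) • v ∈ Eig g V (X 0) := by
  have := eig_conj (R.rel' hk) hv
  rwa [X_zero, zero_vecMul, ← X_zero] at this

theorem Rl.comm4 (R : Rl g) {k : ℕ} (hk : k < 5) (v : V) :
    g 4 • ev g (NW k) • v = ev g (NW k) • g 4 • v := by
  have := R.eq (4 :: NW k) (NW k ++ [4]) (by interval_cases k <;> decide)
  rw [← mul_smul, ← ev_cons, this, ev_append, ev_singleton, mul_smul]

theorem Rl.mem_Y (R : Rl g) {a : ℕ} (ha : a = 3 ∨ a = 7 ∨ a = 8) {v : V} (hv : v ∈ Fx V (g 0)) :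
    g a • v ∈ Fx V (g 0) := by
  have e : g 0 • g a • v = g a • g 0 • v := by
    rcases ha with rfl | rfl | rfl
    exacts [R.sm [0, 3] [3, 0] v, (R.sm [7, 0] [0, 7] v).symm, (R.sm [8, 0] [0, 8] v).symm]
  rw [mem_Fx, e, hv]

namespace Md

variable (M : Md g V)
include M

theorem finite : Finite V := Nat.finite_of_card_ne_zero (by rw [M.card]; norm_num)

theorem card4 {i : Fin 41} (hi : i ≤ 10) : Nat.card (Eig g V (X i)) = 4 :=
  have := M.finite
  (M.cards M.card M.nt).1 i hi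

theorem pj_big {i : Fin 41} (hi : 10 < i) (v : V) : pj g i v = 0 :=
  have := M.finite
  (AddSubgroup.eq_bot_iff_forall _).1 ((M.cards M.card M.nt).2 i hi) _ (M.pj_mem i v)

theorem ex_ne {i : Fin 41} (hi : i ≤ 10) : ∃ v ∈ Eig g V (X i), v ≠ 0 :=
  (Eig g V (X i)).bot_or_exists_ne_zero.resolve_left fun e => by
    have := M.card4 hi
    rw [e, AddSubgroup.card_bot] at this
    omega

theorem exists_fm : ∃ v : Fin 10 → V, Fm g v := by
  have h : ∀ j, ∃ v ∈ Eig g V (X (jx j)) ⊓ Fx V (g 4), v ≠ 0 := fun j =>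
    fix2 (fun v hv => by simpa [NW, ev_singleton, (HH_spec j).2.2] using M.eig_NW (k := 4) (by omega) hv)
      (fun v _ => M.sm [4, 4] [] v) (M.ex_ne (HH_spec j).2.1)
  choose v h1 h2 using h
  exact ⟨v, h2, fun j => (h1 j).1, fun j => (h1 j).2⟩

theorem cases_eig {j : Fin 10} {v u : V} (hv : v ∈ Eig g V (X (jx j))) (h0 : v ≠ 0)
    (hu : u ∈ Eig g V (X (jx j))) :
    u = 0 ∨ u = v ∨ u = ep g (HH j) • v ∨ u = v + ep g (HH j) • v :=
  have := M.finite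
  (M.eig_four hv h0 (HH_spec j).1).2 (M.card4 (HH_spec j).2.1) u hu

theorem uniq {v : Fin 10 → V} (F : Fm g v) {j : Fin 10} {u : V} (hu : u ∈ Eig g V (X (jx j)))
    (h0 : u ≠ 0) (h4 : g 4 • u = u) : u = v j := by
  have e := congrArg (· • v j) (M.rel' (k := 4) (by omega) (HH j + HH j))
  have n := ((F.eig j) _).2 (HH_spec j).1
  simp only [NW, List.getD_cons_succ, List.getD_cons_zero, ev_singleton, mul_smul, F.fix, mulVec_add,
    MM_four] at e
  rw [M.eig_eq (F.eig j) (a := HH j + HH j + (HH j + HH j)) (b := HH j) (by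
    simp only [dotProduct_add]; generalize X (jx j) ⬝ᵥ HH j = x; revert x; decide),
    ← M.ep_smul] at e
  rcases M.cases_eig (F.eig j) (F.ne j) hu with h | h | h | h
  · exact absurd h h0
  · exact h
  · rw [h, ← e] at h4
    rw [h4, add_assoc, v2_add_self, add_zero] at n
    exact absurd n (F.ne j)
  · rw [h, smul_add, F.fix, ← e, add_right_inj] at h4
    rw [h4, add_assoc, v2_add_self, add_zero] at n
    exact absurd n (F.ne j)

theorem NW_fm {v : Fin 10 → V} (F : Fm g v) {k : ℕ} (hk : k < 5) (j : Fin 10) :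
    ev g (NW k) • v j = v (pk k j) :=
  M.uniq F (M.eig_NW hk (F.eig j)) (fun e => F.ne j (eq_zero_of_smul e)) (by rw [M.comm4 hk, F.fix])

theorem Y_dec {u : V} (hu : u ∈ Fx V (g 0)) : u = pj g 0 u + pj g 1 u :=
  (sum_pj u).symm.trans (sum_eq_add_of_mem 0 1 (mem_univ _) (mem_univ _) (by decide) fun i _ hi =>
    (Y_spec i hi).elim (M.pj_big · u) (M.pj_of_fix (ep_one (g := g) ▸ hu)))

theorem fixY {u : V} (hu : u ∈ Fx V (g 0)) {j : ℕ} (hj : j < 3) : g j • u = u := by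
  rw [M.Y_dec hu, smul_add, fix0' (M.pj_mem 0 u) (by omega), fix1 (M.pj_mem 1 u) hj]

theorem card_Y : Nat.card (Fx V (g 0)) = 16 := by
  rw [Nat.card_congr (⟨fun u => (⟨pj g 0 u.1, M.pj_mem 0 u.1⟩, ⟨pj g 1 u.1, M.pj_mem 1 u.1⟩),
    fun p => ⟨p.1.1 + p.2.1, add_mem (fix0' p.1.2 (by omega)) (fix1 p.2.2 (by omega))⟩,
    fun u => Subtype.ext (M.Y_dec u.2).symm, fun p => Prod.ext (Subtype.ext (by
      simp [M.pj_self p.1.2, M.pj_ne (i := 0) (by decide) p.2.2])) (Subtype.ext (by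
      simp [M.pj_self p.2.2, M.pj_ne (i := 1) (by decide) p.1.2]))⟩ :
    Fx V (g 0) ≃ Eig g V (X 0) × Eig g V (X 1)), Nat.card_prod, M.card4 (by decide),
    M.card4 (by decide)]

theorem fpf {y : V} (hy : y ∈ Fx V (g 0)) (h : g 7 • g 8 • g 3 • y = y) : y = 0 := by
  have := M.finite
  have m3 := fun v : V => M.mem_Y (a := 3) (v := v) (by omega)
  have m7 := fun v : V => M.mem_Y (a := 7) (v := v) (by omega)
  have m8 := fun v : V => M.mem_Y (a := 8) (v := v) (by omega)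
  obtain ⟨h1, h2, h3⟩ := fix5 (H := Fx V (g 0)) (c := g 7 * g 8 * g 3) (fun v => by
    simp only [mul_smul]
    exact M.sm [7, 8, 3, 7, 8, 3, 7, 8, 3, 7, 8, 3, 7, 8, 3] [] v)
    fun v hv => by simpa only [mul_smul] using m7 _ (m8 _ (m3 _ hv))
  rw [M.card_Y] at h1 h2 h3
  rcases (by decide : ∀ n ∈ Nat.divisors 16, 16 ≡ n [MOD 5] → n = 1 ∨ n = 16) _
    (Nat.mem_divisors.2 ⟨h2, by omega⟩) h1 with e | e
  · exact (AddSubgroup.eq_bot_iff_forall _).1 (AddSubgroup.card_eq_one.1 e) y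
      ⟨hy, mem_Fx.2 (by simpa only [mul_smul] using h)⟩
  exfalso
  have hc := h3 e
  simp only [mul_smul] at hc
  obtain ⟨v, hv, h0⟩ := M.ex_ne (i := 1) (by decide)
  have hY : v ∈ Fx V (g 0) := fix1 hv (by omega)
  have h4 : g 8 • g 7 • g 7 • g 8 • g 3 • g 7 • g 7 • g 7 • g 8 • g 8 • g 8 • v = v := by
    rw [hc _ (m7 _ (m7 _ (m7 _ (m8 _ (m8 _ (m8 _ hY))))))]
    exact M.sm [8, 7, 7, 7, 7, 8, 8, 8] [] v
  have h5 := M.sm [7, 8, 3, 7, 8, 3, 8, 7, 7, 8, 3, 7, 7, 7, 8, 8, 8, 8, 7, 7, 8, 3, 7, 7, 7, 8, 8, 8,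
    7, 8, 3, 7, 8, 3, 8, 7, 7, 8, 3, 7, 7, 7, 8, 8, 8, 8, 7, 7, 8, 3, 7, 7, 7, 8, 8, 8] [3, 3] v
  simp only [List.foldr, h4, hc v hY] at h5
  have h6 : g 3 • v = v := by
    nth_rw 1 [h5]
    exact M.sm [3, 3, 3] [] v
  exact h0 (zero_of_both h6 (nz1 hv))

theorem fixA {a : ℕ} (ha : a = 5 ∨ a = 6) {v : V} (hv : v ∈ Eig g V (X 0)) : g a • v = v := by
  have := M.finite
  obtain ⟨h1, h2, h3⟩ := fix5 (H := Eig g V (X 0)) (c := g a) (fun v => by
    rcases ha with rfl | rfl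
    exacts [M.sm [5, 5, 5, 5, 5] [] v, M.sm [6, 6, 6, 6, 6] [] v]) fun v hv => by
    rcases ha with rfl | rfl
    · simpa [NW, ev_singleton] using M.eig0_NW (k := 0) (by omega) hv
    · simpa [NW, ev_singleton] using M.eig0_NW (k := 1) (by omega) hv
  rw [M.card4 (by decide)] at h1 h2 h3
  exact h3 ((by decide : ∀ n ∈ Nat.divisors 4, 4 ≡ n [MOD 5] → n = 4) _
    (Nat.mem_divisors.2 ⟨h2, by omega⟩) h1) v hv

variable {d : V} (D : Dv g d)
include D

theorem fixw {w : List ℕ} (hw : ∀ a ∈ w, a < 9 ∧ a ≠ 7 := by decide) :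
    w.foldr (fun a y => g a • y) d = d := by
  induction w with
  | nil => rfl
  | cons a w ih =>
    rw [List.foldr_cons, ih fun b hb => hw b (List.mem_cons_of_mem _ hb)]
    obtain ⟨h1, h2⟩ := hw a List.mem_cons_self
    by_cases h : a < 4
    · exact fix0' D.eig h
    · obtain rfl | rfl | rfl | rfl : a = 4 ∨ a = 5 ∨ a = 6 ∨ a = 8 := by omega
      exacts [D.i, M.fixA (by omega) D.eig, M.fixA (by omega) D.eig, D.r]

theorem e2 : g 7 • d ∈ Eig g V (X 0) := by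
  simpa [NW, ev_singleton] using M.eig0_NW (k := 2) (by omega) D.eig

theorem i2 : g 4 • g 7 • d = g 7 • d := (M.sm [4, 7] [7, 4] d).trans (congrArg _ D.i)

theorem z2 : g 8 • g 8 • g 7 • d = g 7 • d :=
  (M.sm [8, 8, 7] [7, 4, 6, 5, 6, 5, 5, 5, 8, 8] d).trans
    (congrArg _ (M.fixw D (w := [4, 6, 5, 6, 5, 5, 5, 8, 8])))

theorem n2 : g 7 • g 7 • d = d := (M.sm [7, 7] [5, 5, 6, 6, 5, 6, 5, 6, 5] d).trans (M.fixw D)

theorem y3 : g 8 • g 7 • d ∈ Fx V (g 0) := M.mem_Y (by omega) (fix0' (M.e2 D) (by omega))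

theorem y4 : g 3 • g 8 • g 7 • d ∈ Fx V (g 0) := M.mem_Y (by omega) (M.y3 D)

theorem y5 : g 3 • g 3 • g 8 • g 7 • d ∈ Fx V (g 0) := M.mem_Y (by omega) (M.y4 D)

theorem r4 : g 8 • g 3 • g 8 • g 7 • d = g 3 • g 3 • g 8 • g 7 • d := by
  have := M.sm [8, 3, 8] [3, 3, 8, 8, 8, 3, 3] (g 7 • d)
  simpa only [List.foldr, fix0' (M.e2 D) (j := 3) (by omega), M.z2 D] using this

theorem r5 : g 8 • g 3 • g 3 • g 8 • g 7 • d = g 3 • g 8 • g 7 • d := by
  have := M.sm [3, 8, 8] [8, 8, 3] (g 8 • g 7 • d)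
  simpa only [List.foldr, M.r4 D, M.z2 D] using this.symm

theorem n3 : g 7 • g 8 • g 7 • d = g 8 • g 7 • d :=
  (M.sm [7, 8, 7] [8, 7, 8, 1, 3, 3, 8, 6, 6, 5, 8, 3, 3, 6, 6, 5] d).trans
    (congrArg (g 8 • g 7 • ·) (M.fixw D (w := [8, 1, 3, 3, 8, 6, 6, 5, 8, 3, 3, 6, 6, 5])))

theorem n4 : g 7 • g 3 • g 8 • g 7 • d = g 3 • g 3 • g 8 • g 7 • d := by
  have := M.sm [7, 3] [0, 0, 1, 1, 3, 3, 7] (g 8 • g 7 • d)
  simpa only [List.foldr, M.n3 D, M.fixY (M.y5 D) (j := 0) (by omega),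
    M.fixY (M.y5 D) (j := 1) (by omega)] using this

theorem s5 : g 3 • g 3 • g 3 • g 8 • g 7 • d = g 8 • g 7 • d := M.sm [3, 3, 3] [] _

theorem n5 : g 7 • g 3 • g 3 • g 8 • g 7 • d = g 3 • g 8 • g 7 • d := by
  have := M.sm [7, 3] [0, 0, 1, 1, 3, 3, 7] (g 3 • g 8 • g 7 • d)
  simpa only [List.foldr, M.n4 D, M.s5 D, M.fixY (M.y4 D) (j := 0) (by omega),
    M.fixY (M.y4 D) (j := 1) (by omega)] using this

theorem ne12 : d ≠ g 7 • d := fun e => D.ne (M.fpf (fix0' D.eig (by omega)) (by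
  rw [fix0' D.eig (by omega), D.r, ← e]))

theorem ne45 : g 3 • g 8 • g 7 • d ≠ g 3 • g 3 • g 8 • g 7 • d := fun e =>
  D.ne (eq_zero_of_smul (eq_zero_of_smul (eq_zero_of_smul (M.fpf (M.y4 D) (by
    rw [M.r5 D, M.n4 D, ← e])))))

theorem sum5 : g 8 • g 7 • d = d + g 7 • d + (g 3 • g 8 • g 7 • d + g 3 • g 3 • g 8 • g 7 • d) :=
  v2_add_eq_zero.1 (M.fpf (add_mem (M.y3 D) (add_mem (add_mem (fix0' D.eig (by omega))
    (fix0' (M.e2 D) (by omega))) (add_mem (M.y4 D) (M.y5 D)))) (by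
    simp only [smul_add, fix0' D.eig (j := 3) (by omega), fix0' (M.e2 D) (j := 3) (by omega),
      M.s5 D, D.r, M.r4 D, M.r5 D, M.z2 D, M.n2 D, M.n3 D, M.n4 D, M.n5 D]
    abel))

theorem v0 {v : Fin 10 → V} (F : Fm g v) :
    v 0 = g 3 • g 8 • g 7 • d + g 3 • g 3 • g 8 • g 7 • d := by
  have i3 : g 4 • g 8 • g 7 • d = g 8 • g 7 • d := by
    simpa only [List.foldr, M.i2 D, M.z2 D] using M.sm [4, 8] [8, 8, 8, 4] (g 7 • d)
  have i4 : g 4 • g 3 • g 8 • g 7 • d = g 3 • g 3 • g 8 • g 7 • d := by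
    simpa only [List.foldr, i3] using M.sm [4, 3] [3, 3, 4] (g 8 • g 7 • d)
  have i5 : g 4 • g 3 • g 3 • g 8 • g 7 • d = g 3 • g 8 • g 7 • d := by
    simpa only [List.foldr, i4, M.s5 D] using M.sm [4, 3] [3, 3, 4] (g 3 • g 8 • g 7 • d)
  refine (M.uniq F ?_ (fun e => M.ne45 D (v2_add_eq_zero.1 e)) (by rw [smul_add, i4, i5, add_comm])).symm
  rw [M.Y_dec (M.y3 D), smul_add, smul_add, fix0' (M.pj_mem 0 _) (by omega),
    fix0' (M.pj_mem 0 _) (by omega), add_add_add_comm, v2_add_self, zero_add, ← ep_27 (g := g)]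
  exact add_mem (M.eig_ep (M.pj_mem 1 _) _) (M.eig_ep (M.eig_ep (M.pj_mem 1 _) _) _)

theorem cases0 {u : V} (hu : u ∈ Eig g V (X 0)) :
    u = 0 ∨ u = d ∨ u = g 7 • d ∨ u = d + g 7 • d :=
  have := M.finite
  (four_cases D.eig (M.e2 D) D.ne (fun e => D.ne (eq_zero_of_smul e)) (M.ne12 D)).2
    (M.card4 (by decide)) u hu

theorem span {v : Fin 10 → V} (F : Fm g v) {K : AddSubgroup V} (h : ∀ p, fam g v d p ∈ K) (u : V) :
    u ∈ K := by
  rw [← sum_pj (g := g) u]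
  refine sum_mem fun i _ => ?_
  rcases idx_cases i with rfl | hi | ⟨j, rfl⟩
  · rcases M.cases0 D (M.pj_mem 0 u) with e | e | e | e <;> rw [e]
    exacts [zero_mem _, h (none, false), h (none, true), add_mem (h (none, false)) (h (none, true))]
  · rw [M.pj_big hi]; exact zero_mem _
  · rcases M.cases_eig (F.eig j) (F.ne j) (M.pj_mem _ u) with e | e | e | e <;> rw [e]
    exacts [zero_mem _, h (some j, false), h (some j, true),
      add_mem (h (some j, false)) (h (some j, true))]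

theorem exists_basis {v : Fin 10 → V} (F : Fm g v) :
    ∃ b : Module.Basis (Option (Fin 10) × Bool) (ZMod 2) V, ∀ p, b p = fam g v d p := by
  have := M.finite
  exact ⟨basisOfTopLeSpanOfCardEqFinrank (fam g v d) (fun u _ => M.span D F
    (K := (Submodule.span (ZMod 2) (Set.range (fam g v d))).toAddSubgroup)
    (fun p => Submodule.subset_span ⟨p, rfl⟩) u)
    (Nat.pow_right_injective (le_refl 2) (M.card.symm.trans card_v2)),
    congrFun (coe_basisOfTopLeSpanOfCardEqFinrank _ _ _)⟩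

end Md

end

end CL.BU
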