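import Cfsg.Agent.SPOR.BU.Bar
import Cfsg.Agent.SPOR.BU.Co2
import Cfsg.Agent.SPOR.MonType

/-!
The centralizer `2^{1+22}.Co₂`: the reduction to the recognition of `²E₆(2).2`.
-/

set_option autoImplicit false

namespace CL.BU

open CL.LE CL.LX CL.MSS QuadraticMap Module MulAction Cfsg Cfsg.Spor

theorem bl_of {V : Type*} [AddCommGroup V] [Module (ZMod 2) V] [Finite V]
    {q : QuadraticForm (ZMod 2) V} (σ : C2 →* (V ≃ₗ[ZMod 2] V)) (hσ : Function.Injective σ)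
    (hd : finrank (ZMod 2) V = 22) (nd : ∀ v, (∀ w, polar q v w = 0) → v = 0)
    (hq : ∀ a v, q (σ a v) = q v) (hs : IsSimpleGroup U0) : ∃ e, BL q σ.range (U0.map σ) e := by
  let _ : DistribMulAction C2 V := DistribMulAction.compHom V σ
  have sm : ∀ (a : C2) (v : V), a • v = σ a v := fun _ _ => rfl
  obtain ⟨e, e0, e1, e2, e3, e4, e5⟩ := co2_module (V := V) (by rw [card_v2, hd])
    (fun a ha => hσ (by rw [map_one]; exact LinearEquiv.ext ha)) nd hq hs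
  have m1 : ∀ a : C2, a ∈ U1 ↔ σ a e = e := fun a => by rw [← e2]; rfl
  have m0 : ∀ a : C2, σ a ∈ U0.map σ ↔ a ∈ U0 := fun a => Subgroup.mem_map_iff_mem hσ
  refine ⟨e, hd, nd, ?_, e0, e1, ?_, ?_, Subgroup.map_le_range _ _, ?_, ?_, ?_, ?_,
    (U0.equivMapOfInjective σ hσ).symm.isSimpleGroup, σ (gC 0), (m0 _).2 (gC_U0 (by simp)), ?_⟩
  · rintro _ ⟨a, rfl⟩; exact hq a
  · rw [← index_U1, ← e2, index_stabilizer]
    congr 1
    ext v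
    exact ⟨fun ⟨_, ⟨a, h1⟩, h2⟩ => ⟨a, by rw [← h2, ← h1]; rfl⟩, fun ⟨a, h⟩ => ⟨_, ⟨a, rfl⟩, h⟩⟩
  · rintro _ ⟨a, rfl⟩ h2 h1
    exact e3 a (hσ (by rw [map_mul, h2, map_one])) fun h => h1 (by rw [h, map_one])
  · rintro _ ⟨a, h, rfl⟩; exact (m1 a).1 (U0_le h)
  · obtain ⟨a, ha⟩ := Subgroup.index_eq_two_iff.1 index_U0
    refine ⟨σ a, ⟨a, rfl⟩, (m1 _).1 a.2, ?_⟩
    rintro _ ⟨c, rfl⟩ hc
    rw [← map_mul, m0, m0]
    exact ha ⟨c, (m1 c).2 hc⟩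
  · exact fun v hv => e4 v fun a ha => hv _ ((m0 a).2 ha)
  · intro Λ h1 h2 h3 h4 l hl
    obtain ⟨a, rfl⟩ := h1 hl
    have := e5 (Λ.comap σ) (fun k hk => (m1 k).2 (h2 _ hk)) (h3.comap_of_injective σ hσ)
      fun c hc k hk => by
        rw [Subgroup.mem_comap, map_mul, map_mul, map_inv]
        exact h4 _ ⟨c, rfl⟩ ((m1 c).1 hc) _ hk
    rw [Subgroup.mem_bot.1 (this ▸ hl : a ∈ (⊥ : Subgroup C2)), map_one]
  · intro h
    have c3 : gC 0 * (gC 0 * gC 0) = 1 := by simpa [CL.CE.ev] using rl_gC.eq [0, 0, 0] []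
    rw [← map_mul, ← map_one σ, hσ.eq_iff] at h
    rw [h, mul_one] at c3
    exact gC_ne c3

/-- the involution `d` with `d ∈ C(d)'` and the hypotheses of the recognition of `²E₆(2).2` -/
theorem top.{u} {G : Type u} [Group G] [Finite G] {τ : G} (Q0 : Subgroup (Cz τ)) [Q0.Normal]
    (hS : IsExtraspecialCentralizerSetting τ Q0 11) (hCo : IsoCo2 (Cz τ ⧸ Q0))
    (hs : IsSimpleGroup U0) :
    ∃ d : G, d ≠ 1 ∧ d * d = 1 ∧ (⟨d, mem_Cz.2 rfl⟩ : Cz d) ∈ commutator (Cz d) ∧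
      ∀ {Y : Type u} [Group Y] [Finite Y] (p : Cz d →* Y), Function.Surjective p →
        (∀ x, p x = 1 ↔ (x : G) = 1 ∨ (x : G) = d) →
      ∃ z : Y, orderOf z = 2 ∧ generalizedFittingSubgroup (Cz z) = pCore 2 (Cz z) ∧
        IsExtraspecial 2 (pCore 2 (Cz z)) ∧ Nat.card (pCore 2 (Cz z)) = 2 ^ 21 ∧
        (∃ g : Y, g * z * g⁻¹ ∈ (pCore 2 (Cz z)).map (Cz z).subtype ∧ g * z * g⁻¹ ≠ z) ∧
        ∃ H : Subgroup (Cz z), H.index = 2 ∧ pCore 2 (Cz z) ≤ H ∧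
          ∃ μ : H →* U0, Function.Surjective μ ∧ (pCore 2 (Cz z)).subgroupOf H = μ.ker := by
  have hl := MT.lx_of_setting Q0 hS
  obtain ⟨-, -, -, hc, g, ⟨g1, g2⟩, g3⟩ := hS
  rw [← Subgroup.card_map_of_injective (Cz τ).subtype_injective] at hc
  obtain ⟨Q, -, hQ, h⟩ := exists_lf hl (by norm_num) hc
  have hτ : τ ∈ {d | IsConj τ d} := IsConj.refl τ
  obtain ⟨κ, ρ, q, f⟩ := exists_fr (h.lx hτ) (h.card hτ)
  have mQ : ∀ c : Cz τ, (c : G) ∈ Q τ ↔ c ∈ Q0 := fun c => by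
    rw [hQ]; exact Subgroup.mem_map_iff_mem (Cz τ).subtype_injective
  have p : LE.NW _ Q τ (g * τ * g⁻¹) := ⟨hτ, h.conj hτ g, (mQ ⟨_, g1⟩).2 g2, g3⟩
  obtain ⟨ε⟩ := hCo
  let π : Cz τ →* C2 := (ε.trans Leech.eqCo2).toMonoidHom.comp (QuotientGroup.mk' Q0)
  have hπ : Function.Surjective π :=
    (ε.trans Leech.eqCo2).surjective.comp (QuotientGroup.mk'_surjective Q0)
  have π1 : ∀ c, π c = 1 ↔ ρ c = 1 := fun c => by
    rw [f.rho_eq_one, mQ, ← QuotientGroup.eq_one_iff]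
    exact map_eq_one_iff _ (ε.trans Leech.eqCo2).injective
  obtain ⟨σ, hσ⟩ : ∃ σ : C2 →* _, ∀ c, σ (π c) = ρ c :=
    ⟨π.liftOfSurjective hπ ⟨ρ, fun c hc => (π1 c).1 hc⟩, fun c =>
      MonoidHom.liftOfRightInverse_comp_apply _ _ _ _ c⟩
  have σi : Function.Injective σ := (injective_iff_map_eq_one _).2 fun a ha => by
    obtain ⟨c, rfl⟩ := hπ a
    exact (π1 c).2 (hσ c ▸ ha)
  have hr : σ.range = ρ.range := by
    ext l
    constructor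
    · rintro ⟨a, rfl⟩
      obtain ⟨c, rfl⟩ := hπ a
      exact ⟨c, (hσ c).symm⟩
    · rintro ⟨c, rfl⟩; exact ⟨π c, hσ c⟩
  obtain ⟨e, b⟩ := bl_of σ σi (by simp) f.nondeg (fun a v => by
    obtain ⟨c, rfl⟩ := hπ a
    rw [hσ, f.q_rho]) hs
  rw [hr] at b
  obtain ⟨d, hd, de⟩ := f.κ_surj e
  refine ⟨d, fun a => b.ne (by rw [← de, a, f.κ_one]), (f.sq_iff d hd).2 (de ▸ b.sing),
    mem_commutator f (eight_lt_of_width h.two_le (h.card hτ)) b hd de, fun r hr r1 => ?_⟩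
  obtain ⟨z, z1, z2, z3, z4, z5, H, h1, h2, μ, m1, m2⟩ :=
    bar h hτ f b hd de (red h p f b hd de) r hr r1
  refine ⟨z, z1, z2, z3, z4, z5, H, h1, h2,
    (U0.equivMapOfInjective σ σi).symm.toMonoidHom.comp μ,
    (U0.equivMapOfInjective σ σi).symm.surjective.comp m1, ?_⟩
  rw [m2]
  ext c
  exact (map_eq_one_iff _ (U0.equivMapOfInjective σ σi).symm.injective).symm

end CL.BU
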